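import Cfsg.Agent.Lib.InvCentralizers.GL2Series
import Cfsg.Agent.Lib.Correspondences.SL2EvenDegrees
import Cfsg.Agent.Lib.ZerosCodegree.CharBasics

/-!
The irreducible characters of `GL₂(q)` by degree.
-/

set_option autoImplicit false
set_option linter.unusedSectionVars false
set_option linter.style.haveILetI false

namespace CfsgLib.InvCentralizers.GL2

open Cfsg CfsgLib.CharTheory
open Matrix
open scoped MatrixGroups

variable {F : Type*} [Field F] [Fintype F] [DecidableEq F]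

local notation "M₂" => Matrix (Fin 2) (Fin 2) F
local notation "G₂" => Matrix.GeneralLinearGroup (Fin 2) F
local notation "q" => (Fintype.card F : ℂ)

/-- Orthogonal to the principal series. -/
def Cusp (χ : G₂ → ℂ) : Prop := ∀ α β : MulChar F ℂ, classInner χ (ps α β) = 0

theorem irr_cases {χ : G₂ → ℂ} (hχ : IsIrrCharacter G₂ χ) :
    (∃ α, χ = detChar α) ∨ (∃ α, χ = ps α α - detChar α) ∨
      (∃ α β, α ≠ β ∧ χ = ps α β) ∨ Cusp χ := by
  classical
  by_contra h
  push Not at h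
  obtain ⟨h1, h2, h3, h4⟩ := h
  apply h4
  intro α β
  by_cases hab : α = β
  · subst hab
    rw [show ps α α = (ps α α - detChar α) + detChar α by rw [sub_add_cancel],
      classInner_add_right, classInner_eq_zero_of_ne hχ (st_irr α) (h2 α),
      classInner_eq_zero_of_ne hχ (detChar_isIrr α) (h1 α), add_zero]
  · exact classInner_eq_zero_of_ne hχ (ps_irr hab) (h3 α β hab)

theorem cusp_diag {χ : G₂ → ℂ} (hcl : IsClassFunction G₂ χ) (h : Cusp χ) (g : G₂)
    (h10 : (g : M₂) 1 0 = 0) (hne : (g : M₂) 0 0 ≠ (g : M₂) 1 1) : χ g = 0 := by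
  have hd := det_ne_zero' g
  rw [h10, mul_zero, sub_zero] at hd
  set a : Fˣ := Units.mk0 _ (left_ne_zero_of_mul hd) with ha
  set d : Fˣ := Units.mk0 _ (right_ne_zero_of_mul hd) with hd'
  have hsum := sum_upper_eq_zero hcl h a d
  rw [Finset.sum_congr rfl (g := fun _ => χ g) (fun x _ => ?_), Finset.sum_const, Finset.card_univ,
    nsmul_eq_mul, mul_eq_zero] at hsum
  · exact hsum.resolve_left (Nat.cast_ne_zero.2 Fintype.card_ne_zero)
  · obtain ⟨k, hk⟩ := isConj_iff.1 (isConj_of_not_scalar (g := g) (h := upper a x d)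
      (fun e => hne e.2.2) (fun e => hne (by simpa [upper_coe, ha, hd'] using e.2.2))
      (by simp [upper_coe, ha, hd']) (by simp [upper_coe, ha, hd', h10]))
    rw [← hk, hcl]

theorem cusp_unipotent {χ : G₂ → ℂ} (hcl : IsClassFunction G₂ χ) (h : Cusp χ) :
    χ 1 + (q - 1) * χ (upper 1 1 1) = 0 := by
  classical
  have hsum := sum_upper_eq_zero hcl h 1 1
  rw [← Finset.add_sum_erase _ _ (Finset.mem_univ (0 : F)),
    Finset.sum_congr rfl (g := fun _ => χ (upper 1 1 1)) (fun x hx => ?_), Finset.sum_const,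
    Finset.card_erase_of_mem (Finset.mem_univ _), Finset.card_univ, nsmul_eq_mul,
    Nat.cast_sub Fintype.card_pos, Nat.cast_one] at hsum
  · rwa [show upper (1 : Fˣ) (0 : F) 1 = 1 by
      apply Units.ext
      rw [upper_coe, Units.val_one]
      ext i j; fin_cases i <;> fin_cases j <;> simp] at hsum
  · have hx0 := Finset.ne_of_mem_erase hx
    obtain ⟨k, hk⟩ := isConj_iff.1 (isConj_of_not_scalar (g := upper (1 : Fˣ) (1 : F) 1)
      (h := upper 1 x 1) (by simp [upper_coe]) (by simp [upper_coe, hx0]) (by simp [upper_coe])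
      (by simp [upper_coe]))
    rw [← hk, hcl]

theorem dvd_of_cusp {χ : G₂ → ℂ} (hχ : IsIrrCharacter G₂ χ) (h : Cusp χ) :
    Fintype.card F - 1 ∣ charDegree χ := by
  have hc := IsIrrCharacter.isClassFunction hχ
  have hd := CfsgLib.Correspondences.charDegree_cast (IsIrrCharacter.isCharacter hχ)
  have hu := cusp_unipotent hc h
  rw [← hd] at hu
  have hq : Fintype.card F - 1 ≠ 0 := by
    have := Fintype.one_lt_card (α := F)
    omega
  refine dvd_of_isIntegral_natCast_div hq ?_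
  have hint : IsIntegral ℤ (-χ (upper 1 1 1)) :=
    (IsCharacter.isIntegral (IsIrrCharacter.isCharacter hχ) _).neg
  convert hint using 1
  rw [div_eq_iff (Nat.cast_ne_zero.2 hq), Nat.cast_sub Fintype.card_pos, Nat.cast_one]
  linear_combination hu

theorem detChar_injective : Function.Injective (detChar (F := F)) := by
  classical
  intro α β h
  have h1 := classInner_det_ps α α α
  rw [if_pos ⟨rfl, rfl⟩, h, classInner_det_ps] at h1
  by_contra hne
  rw [if_neg (fun e => hne e.1.symm)] at h1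
  exact zero_ne_one h1

theorem st_injective : Function.Injective (fun α : MulChar F ℂ => ps α α - detChar α) := by
  classical
  intro α β h
  simp only at h
  have h1 : classInner (ps α α - detChar α) (ps α α) = 1 := by
    rw [classInner_sub_left, classInner_ps_ps, classInner_det_ps, if_pos ⟨rfl, rfl⟩]
    ring
  rw [h, classInner_sub_left, classInner_ps_ps, classInner_det_ps] at h1
  by_contra hne
  rw [if_neg (fun e => hne e.1.symm)] at h1
  simp at h1

/-- The partition of the irreducible characters. -/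
theorem partition : ∃ (L T A D : Finset (IrrCharacter G₂)),
    L.card + 1 = Fintype.card F ∧ T.card + 1 = Fintype.card F ∧
    2 * A.card = (Fintype.card F - 1) * (Fintype.card F - 2) ∧
    2 * D.card = Fintype.card F * (Fintype.card F - 1) ∧
    (∀ χ ∈ L, charDegree (χ : G₂ → ℂ) = 1) ∧
    (∀ χ ∈ T, charDegree (χ : G₂ → ℂ) = Fintype.card F) ∧
    (∀ χ ∈ A, charDegree (χ : G₂ → ℂ) = Fintype.card F + 1) ∧
    (∀ χ ∈ D, charDegree (χ : G₂ → ℂ) = Fintype.card F - 1 ∧ Cusp (χ : G₂ → ℂ)) ∧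
    (∀ χ, χ ∈ L ∨ χ ∈ T ∨ χ ∈ A ∨ χ ∈ D) ∧
    (∀ χ : IrrCharacter G₂, Cusp (χ : G₂ → ℂ) → χ ∈ D) := by
  classical
  haveI := Fintype.ofFinite (IrrCharacter G₂)
  have hq : 2 ≤ Fintype.card F := Fintype.one_lt_card
  let P : MulChar F ℂ × MulChar F ℂ → IrrCharacter G₂ := fun p =>
    if h : p.1 = p.2 then ⟨detChar p.1, detChar_isIrr _⟩ else ⟨ps p.1 p.2, ps_irr h⟩
  have hP : ∀ p : MulChar F ℂ × MulChar F ℂ, p.1 ≠ p.2 →
      ((P p : IrrCharacter G₂) : G₂ → ℂ) = ps p.1 p.2 := fun p h => by simp [P, h]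
  let L : Finset (IrrCharacter G₂) := Finset.univ.image fun α => ⟨detChar α, detChar_isIrr α⟩
  let T : Finset (IrrCharacter G₂) := Finset.univ.image fun α => ⟨ps α α - detChar α, st_irr α⟩
  let S := (Finset.univ : Finset (MulChar F ℂ)).offDiag
  let A : Finset (IrrCharacter G₂) := S.image P
  have hLdeg : ∀ χ ∈ L, charDegree (χ : G₂ → ℂ) = 1 := by
    intro χ hχ
    obtain ⟨α, -, rfl⟩ := Finset.mem_image.1 hχ
    exact ZerosCodegree.charDegree_eq (by rw [Nat.cast_one]; exact detChar_apply_one α)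
  have hTdeg : ∀ χ ∈ T, charDegree (χ : G₂ → ℂ) = Fintype.card F := by
    intro χ hχ
    obtain ⟨α, -, rfl⟩ := Finset.mem_image.1 hχ
    refine ZerosCodegree.charDegree_eq ?_
    change (ps α α - detChar α) 1 = _
    rw [Pi.sub_apply, ps_apply_one, detChar_apply_one]
    ring
  have hAdeg : ∀ χ ∈ A, charDegree (χ : G₂ → ℂ) = Fintype.card F + 1 := by
    intro χ hχ
    obtain ⟨p, hp, rfl⟩ := Finset.mem_image.1 hχ
    refine ZerosCodegree.charDegree_eq ?_
    rw [hP p (Finset.mem_offDiag.1 hp).2.2, ps_apply_one]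
    push_cast; ring
  have hLc : L.card + 1 = Fintype.card F := by
    rw [Finset.card_image_of_injective _ (fun a b h => detChar_injective (congrArg Subtype.val h)),
      Finset.card_univ, CfsgLib.CharDegrees.card_mulChar]
    omega
  have hTc : T.card + 1 = Fintype.card F := by
    rw [Finset.card_image_of_injective _ (fun a b h => st_injective (congrArg Subtype.val h)),
      Finset.card_univ, CfsgLib.CharDegrees.card_mulChar]
    omega
  have hfib : ∀ p ∈ S, S.filter (fun r => P r = P p) = {p, p.swap} := by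
    intro p hp
    have hne := (Finset.mem_offDiag.1 hp).2.2
    ext r
    simp only [Finset.mem_filter, Finset.mem_insert, Finset.mem_singleton, S, Finset.mem_offDiag,
      Finset.mem_univ, true_and]
    constructor
    · rintro ⟨hr, he⟩
      have h' : ps r.1 r.2 = ps p.1 p.2 := by rw [← hP r hr, ← hP p hne, he]
      rcases (ps_eq_iff _ _ _ _).1 h' with ⟨e1, e2⟩ | ⟨e1, e2⟩
      · exact Or.inl (Prod.ext e1 e2)
      · exact Or.inr (Prod.ext e1 e2)
    · rintro (rfl | rfl)
      · exact ⟨hne, rfl⟩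
      · refine ⟨Ne.symm hne, Subtype.ext ?_⟩
        rw [hP _ (Ne.symm hne), hP _ hne]
        exact ps_swap _ _
  have hAc : 2 * A.card = (Fintype.card F - 1) * (Fintype.card F - 2) := by
    have h := Finset.card_eq_sum_card_image P S
    rw [Finset.sum_congr rfl (g := fun _ => 2) ?_, Finset.sum_const, smul_eq_mul] at h
    · change S.card = A.card * 2 at h
      rw [Finset.offDiag_card, Finset.card_univ, CfsgLib.CharDegrees.card_mulChar] at h
      obtain ⟨k, hk⟩ : ∃ k, Fintype.card F = k + 2 := ⟨Fintype.card F - 2, by omega⟩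
      rw [hk, show k + 2 - 1 = k + 1 by omega] at h
      rw [hk, show k + 2 - 1 = k + 1 by omega, show k + 2 - 2 = k by omega]
      rw [show (k + 1) * (k + 1) = (k + 1) * k + (k + 1) by ring, Nat.add_sub_cancel] at h
      omega
    · intro χ hχ
      obtain ⟨p, hp, rfl⟩ := Finset.mem_image.1 hχ
      rw [hfib p hp, Finset.card_pair]
      intro h
      exact (Finset.mem_offDiag.1 hp).2.2 (congrArg Prod.fst h)
  have hLT : Disjoint L T := Finset.disjoint_left.2 fun χ h h' => by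
    have := (hLdeg χ h).symm.trans (hTdeg χ h'); omega
  have hLTA : Disjoint (L ∪ T) A := Finset.disjoint_left.2 fun χ h h' => by
    rcases Finset.mem_union.1 h with h | h
    · have := (hLdeg χ h).symm.trans (hAdeg χ h'); omega
    · have := (hTdeg χ h).symm.trans (hAdeg χ h'); omega
  let D : Finset (IrrCharacter G₂) := Finset.univ \ (L ∪ T ∪ A)
  have hDcusp : ∀ χ ∈ D, Cusp (χ : G₂ → ℂ) := by
    intro χ hχ
    simp only [D, Finset.mem_sdiff, Finset.mem_univ, true_and, Finset.mem_union, not_or] at hχ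
    obtain ⟨⟨hL', hT'⟩, hA'⟩ := hχ
    rcases irr_cases χ.2 with ⟨α, e⟩ | ⟨α, e⟩ | ⟨α, β, hab, e⟩ | h
    · exact absurd (Finset.mem_image.2 ⟨α, Finset.mem_univ _, Subtype.ext e.symm⟩) hL'
    · exact absurd (Finset.mem_image.2 ⟨α, Finset.mem_univ _, Subtype.ext e.symm⟩) hT'
    · refine absurd (Finset.mem_image.2 ⟨(α, β), ?_, Subtype.ext ?_⟩) hA'
      · simp [S, hab]
      · rw [hP (α, β) hab]; exact e.symm
    · exact h
  have hins : Disjoint D (L ∪ T ∪ A) := Finset.sdiff_disjoint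
  have huniv : D ∪ (L ∪ T ∪ A) = Finset.univ := Finset.sdiff_union_of_subset (Finset.subset_univ _)
  have hnum : D.card + (L.card + T.card + A.card) = Fintype.card F ^ 2 - 1 := by
    rw [← card_conjClasses (F := F), ← card_irrCharacter, Nat.card_eq_fintype_card, ← Finset.card_univ,
      ← huniv, Finset.card_union_of_disjoint hins, Finset.card_union_of_disjoint hLTA,
      Finset.card_union_of_disjoint hLT]
  have hcardG : Nat.card G₂ = (Fintype.card F ^ 2 - 1) * (Fintype.card F ^ 2 - Fintype.card F) := by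
    rw [Matrix.card_GL_field]
    simp [Fin.prod_univ_succ]
  have hsumsq : ∑ χ ∈ D, (charDegree (χ : G₂ → ℂ)) ^ 2 +
      (L.card + T.card * Fintype.card F ^ 2 + A.card * (Fintype.card F + 1) ^ 2) = Nat.card G₂ := by
    have h := sum_degree_sq (G := G₂)
    rw [Finset.sum_congr rfl (fun χ _ => by
      rw [← CfsgLib.Correspondences.charDegree_cast (IsIrrCharacter.isCharacter χ.2), ← Nat.cast_pow]),
      ← Nat.cast_sum, Nat.cast_inj, ← huniv, Finset.sum_union hins, Finset.sum_union hLTA,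
      Finset.sum_union hLT,
      Finset.sum_congr (s₁ := L) rfl (g := fun _ => 1) (fun χ hχ => by rw [hLdeg χ hχ, one_pow]),
      Finset.sum_congr (s₁ := T) rfl (g := fun _ => Fintype.card F ^ 2) (fun χ hχ => by rw [hTdeg χ hχ]),
      Finset.sum_congr (s₁ := A) rfl (g := fun _ => (Fintype.card F + 1) ^ 2)
        (fun χ hχ => by rw [hAdeg χ hχ]),
      Finset.sum_const, Finset.sum_const, Finset.sum_const, smul_eq_mul, smul_eq_mul, smul_eq_mul,
      mul_one] at h
    exact h
  set n := Fintype.card F with hn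
  have hb : ∀ χ ∈ D, 1 ≤ charDegree (χ : G₂ → ℂ) / (n - 1) := fun χ hχ =>
    Nat.div_pos (Nat.le_of_dvd (CfsgLib.Correspondences.charDegree_pos χ.2)
      (dvd_of_cusp χ.2 (hDcusp χ hχ))) (by omega)
  set Q := ∑ χ ∈ D, (charDegree (χ : G₂ → ℂ) / (n - 1)) ^ 2 with hQdef
  have hDsum : ∑ χ ∈ D, (charDegree (χ : G₂ → ℂ)) ^ 2 = (n - 1) ^ 2 * Q := by
    rw [hQdef, Finset.mul_sum]
    refine Finset.sum_congr rfl fun χ hχ => ?_
    rw [← mul_pow, Nat.mul_div_cancel' (dvd_of_cusp χ.2 (hDcusp χ hχ))]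
  rw [hDsum, hcardG] at hsumsq
  have h1 : (L.card : ℤ) + 1 = n := by exact_mod_cast hLc
  have h2 : (T.card : ℤ) + 1 = n := by exact_mod_cast hTc
  have h3 : (2 : ℤ) * A.card = ((n : ℤ) - 1) * ((n : ℤ) - 2) := by
    have := congrArg (fun k : ℕ => (k : ℤ)) hAc
    simp only [Nat.cast_mul, Nat.cast_ofNat, Nat.cast_sub (show 1 ≤ n by omega),
      Nat.cast_sub hq, Nat.cast_one] at this
    exact this
  have hn1 : 1 ≤ n ^ 2 := Nat.one_le_pow _ _ (by omega)
  have hn2 : n ≤ n ^ 2 := Nat.le_self_pow two_ne_zero n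
  zify [hn1, hn2, show 1 ≤ n by omega] at hsumsq hnum
  have hQ : (2 : ℤ) * Q = n * ((n : ℤ) - 1) := by
    apply mul_left_cancel₀ (pow_ne_zero 2 (show (n : ℤ) - 1 ≠ 0 by omega))
    linear_combination 2 * hsumsq - 2 * h1 - 2 * (n : ℤ) ^ 2 * h2 - ((n : ℤ) + 1) ^ 2 * h3
  have hDc : (2 : ℤ) * D.card = n * ((n : ℤ) - 1) := by
    linear_combination 2 * hnum - 2 * h1 - 2 * h2 - h3
  have hDdeg : ∀ χ ∈ D, charDegree (χ : G₂ → ℂ) = n - 1 := by
    intro χ hχ
    have hle : ∀ ψ ∈ D, 1 ≤ (charDegree (ψ : G₂ → ℂ) / (n - 1)) ^ 2 :=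
      fun ψ hψ => Nat.one_le_pow _ _ (hb ψ hψ)
    have heq : ∑ ψ ∈ D, 1 = ∑ ψ ∈ D, (charDegree (ψ : G₂ → ℂ) / (n - 1)) ^ 2 := by
      rw [← Finset.card_eq_sum_ones, ← hQdef]
      omega
    have h := (Finset.sum_eq_sum_iff_of_le hle).1 heq χ hχ
    have h1 : charDegree (χ : G₂ → ℂ) / (n - 1) = 1 :=
      (pow_eq_one_iff.1 h.symm).resolve_right two_ne_zero
    have := Nat.mul_div_cancel' (dvd_of_cusp χ.2 (hDcusp χ hχ))
    rw [h1, mul_one] at this
    exact this.symm
  have hcov : ∀ χ, χ ∈ L ∨ χ ∈ T ∨ χ ∈ A ∨ χ ∈ D := fun χ => by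
    have : χ ∈ D ∪ (L ∪ T ∪ A) := huniv ▸ Finset.mem_univ χ
    simp only [Finset.mem_union] at this
    tauto
  refine ⟨L, T, A, D, hLc, hTc, hAc, ?_, hLdeg, hTdeg, hAdeg,
    fun χ hχ => ⟨hDdeg χ hχ, hDcusp χ hχ⟩, hcov, fun χ h => ?_⟩
  · zify [show 1 ≤ n by omega]
    exact hDc
  · rcases hcov χ with e | e | e | e
    · exfalso
      obtain ⟨α, -, rfl⟩ := Finset.mem_image.1 e
      have h' := h α α
      rw [classInner_det_ps, if_pos ⟨rfl, rfl⟩] at h'
      exact one_ne_zero h'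
    · exfalso
      obtain ⟨α, -, rfl⟩ := Finset.mem_image.1 e
      have h' := h α α
      rw [classInner_sub_left, classInner_ps_ps, classInner_det_ps, if_pos ⟨rfl, rfl⟩] at h'
      norm_num at h'
    · exfalso
      obtain ⟨p, hp, rfl⟩ := Finset.mem_image.1 e
      have hne := (Finset.mem_offDiag.1 hp).2.2
      have h' := h p.1 p.2
      rw [hP p hne, classInner_ps_ps, if_pos ⟨rfl, rfl⟩, if_neg (fun e => hne e.2)] at h'
      norm_num at h'
    · exact e

/-- The four cases. -/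
theorem irr_values {χ : G₂ → ℂ} (hχ : IsIrrCharacter G₂ χ) :
    (χ 1 = 1 ∧ ∃ α, χ = detChar α) ∨
    (χ 1 = q ∧ ∃ α, χ = ps α α - detChar α) ∨
    (χ 1 = q + 1 ∧ ∃ α β, χ = ps α β) ∨
    (χ 1 = q - 1 ∧ Cusp χ ∧ χ (upper 1 1 1) = -1) := by
  classical
  rcases irr_cases hχ with ⟨α, rfl⟩ | ⟨α, rfl⟩ | ⟨α, β, -, rfl⟩ | h
  · exact Or.inl ⟨detChar_apply_one α, α, rfl⟩
  · exact Or.inr (Or.inl ⟨by rw [Pi.sub_apply, ps_apply_one, detChar_apply_one]; ring, α, rfl⟩)
  · exact Or.inr (Or.inr (Or.inl ⟨ps_apply_one α β, α, β, rfl⟩))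
  · obtain ⟨L, T, A, D, -, -, -, -, -, -, -, hD, -, hmem⟩ := partition (F := F)
    have hdeg : charDegree χ = Fintype.card F - 1 := (hD _ (hmem ⟨χ, hχ⟩ h)).1
    have h1 : χ 1 = q - 1 := by
      rw [← CfsgLib.Correspondences.charDegree_cast (IsIrrCharacter.isCharacter hχ), hdeg,
        Nat.cast_sub Fintype.card_pos, Nat.cast_one]
    refine Or.inr (Or.inr (Or.inr ⟨h1, h, ?_⟩))
    have hu := cusp_unipotent (IsIrrCharacter.isClassFunction hχ) h
    rw [h1] at hu
    apply mul_left_cancel₀ (q_sub_one_ne_zero (F := F))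
    linear_combination hu

end CfsgLib.InvCentralizers.GL2
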