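import Mathlib
import Cfsg.Prelude.Def_ParabolicCharacters

/-!
Conjugacy classes of `GL₂(q)`: every non-scalar element is conjugate to a companion matrix.
-/

set_option autoImplicit false
set_option linter.unusedSectionVars false

namespace CfsgLib.InvCentralizers.GL2

open Matrix
open scoped MatrixGroups

variable {F : Type*} [Field F]

local notation "M₂" => Matrix (Fin 2) (Fin 2) F
local notation "G₂" => Matrix.GeneralLinearGroup (Fin 2) F

theorem det_ne_zero' (g : G₂) :
    (g : M₂) 0 0 * (g : M₂) 1 1 - (g : M₂) 0 1 * (g : M₂) 1 0 ≠ 0 := by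
  rw [← det_fin_two]
  exact ((Matrix.isUnit_iff_isUnit_det _).1 g.isUnit).ne_zero

/-- The scalar matrix. -/
def scal (a : Fˣ) : G₂ :=
  Matrix.GeneralLinearGroup.mkOfDetNeZero !![(a : F), 0; 0, (a : F)]
    (by simp [det_fin_two_of])

theorem scal_coe (a : Fˣ) : ((scal a : G₂) : M₂) = !![(a : F), 0; 0, (a : F)] := rfl

/-- An upper triangular matrix. -/
def upper (a : Fˣ) (x : F) (d : Fˣ) : G₂ :=
  Matrix.GeneralLinearGroup.mkOfDetNeZero !![(a : F), x; 0, (d : F)] (by simp [det_fin_two_of])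

theorem upper_coe (a : Fˣ) (x : F) (d : Fˣ) : ((upper a x d : G₂) : M₂) = !![(a : F), x; 0, (d : F)] :=
  rfl

/-- The companion matrix. -/
def comp (t : F) (d : Fˣ) : G₂ :=
  Matrix.GeneralLinearGroup.mkOfDetNeZero !![0, -(d : F); 1, t] (by simp [det_fin_two_of])

theorem comp_coe (t : F) (d : Fˣ) : ((comp t d : G₂) : M₂) = !![0, -(d : F); 1, t] := rfl

/-- The determinant as a unit. -/
noncomputable def detU (g : G₂) : Fˣ := Units.mk0 _ (det_ne_zero' g)

theorem isConj_comp (g : G₂) (hg : ¬ ((g : M₂) 0 1 = 0 ∧ (g : M₂) 1 0 = 0 ∧ (g : M₂) 0 0 = (g : M₂) 1 1)) :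
    IsConj (comp ((g : M₂) 0 0 + (g : M₂) 1 1) (detU g)) g := by
  set a := (g : M₂) 0 0 with ha
  set b := (g : M₂) 0 1 with hb
  set c := (g : M₂) 1 0 with hc
  set d := (g : M₂) 1 1 with hd
  obtain ⟨x, y, hne⟩ : ∃ x y : F, x * (c * x + d * y) - y * (a * x + b * y) ≠ 0 := by
    by_contra hall
    push Not at hall
    have h1 := hall 1 0
    have h2 := hall 0 1
    have h3 := hall 1 1
    simp only [one_mul, mul_zero, add_zero, zero_mul, sub_zero, zero_add, zero_sub, mul_one,
      neg_eq_zero] at h1 h2 h3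
    exact hg ⟨h2, h1, by linear_combination h1 - h2 - h3⟩
  have hP : Matrix.det !![x, a * x + b * y; y, c * x + d * y] ≠ 0 := by
    rw [det_fin_two_of]
    intro e
    exact hne (by linear_combination e)
  refine isConj_iff.2 ⟨Matrix.GeneralLinearGroup.mkOfDetNeZero _ hP, ?_⟩
  rw [mul_inv_eq_iff_eq_mul]
  apply Units.ext
  rw [Units.val_mul, Units.val_mul, comp_coe]
  change !![x, a * x + b * y; y, c * x + d * y] * !![0, -((detU g : Fˣ) : F); 1, a + d] =
    (g : M₂) * !![x, a * x + b * y; y, c * x + d * y]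
  have hdet : ((detU g : Fˣ) : F) = a * d - b * c := rfl
  rw [hdet]
  ext i j
  fin_cases i <;> fin_cases j <;>
    simp [Matrix.mul_apply, Fin.sum_univ_two, ← ha, ← hb, ← hc, ← hd] <;> ring

theorem tr_det_of_isConj {g h : G₂} (hc : IsConj g h) :
    (g : M₂).trace = (h : M₂).trace ∧ (g : M₂).det = (h : M₂).det := by
  obtain ⟨k, rfl⟩ := isConj_iff.1 hc
  rw [Units.val_mul, Units.val_mul, Matrix.trace_units_conj, Matrix.det_units_conj]
  exact ⟨rfl, rfl⟩

theorem isConj_of_not_scalar {g h : G₂}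
    (hg : ¬ ((g : M₂) 0 1 = 0 ∧ (g : M₂) 1 0 = 0 ∧ (g : M₂) 0 0 = (g : M₂) 1 1))
    (hh : ¬ ((h : M₂) 0 1 = 0 ∧ (h : M₂) 1 0 = 0 ∧ (h : M₂) 0 0 = (h : M₂) 1 1))
    (ht : (g : M₂) 0 0 + (g : M₂) 1 1 = (h : M₂) 0 0 + (h : M₂) 1 1)
    (hd : (g : M₂) 0 0 * (g : M₂) 1 1 - (g : M₂) 0 1 * (g : M₂) 1 0 =
      (h : M₂) 0 0 * (h : M₂) 1 1 - (h : M₂) 0 1 * (h : M₂) 1 0) : IsConj g h := by
  have h1 := isConj_comp g hg
  have h2 := isConj_comp h hh
  rw [ht, show detU g = detU h from Units.ext hd] at h1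
  exact h1.symm.trans h2

theorem card_conjClasses [Fintype F] :
    Nat.card (ConjClasses G₂) = Fintype.card F ^ 2 - 1 := by
  classical
  let f : Fˣ ⊕ (F × Fˣ) → ConjClasses G₂ := Sum.elim (fun a => ConjClasses.mk (scal a))
    (fun td => ConjClasses.mk (comp td.1 td.2))
  have hscal : ∀ (a : Fˣ) (g : G₂), IsConj (scal a) g → g = scal a := by
    intro a g h
    obtain ⟨k, rfl⟩ := isConj_iff.1 h
    rw [mul_inv_eq_iff_eq_mul]
    apply Units.ext
    rw [Units.val_mul, Units.val_mul, scal_coe]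
    ext i j
    fin_cases i <;> fin_cases j <;> simp [Matrix.mul_apply, Fin.sum_univ_two, mul_comm]
  have hne : ∀ (a : Fˣ) (t : F) (d : Fˣ), ¬ IsConj (scal a) (comp t d) := by
    intro a t d h
    have e := congrArg (fun g : G₂ => (g : M₂) 1 0) (hscal a _ h)
    simp [scal_coe, comp_coe] at e
  have hinj : Function.Injective f := by
    rintro (a | ⟨t, d⟩) (a' | ⟨t', d'⟩) h
    · have e := congrArg (fun g : G₂ => (g : M₂) 0 0) (hscal a _ (ConjClasses.mk_eq_mk_iff_isConj.1 h))
      simp only [scal_coe, of_apply, cons_val', cons_val_zero, cons_val_fin_one] at e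
      rw [Units.ext e]
    · exact absurd (ConjClasses.mk_eq_mk_iff_isConj.1 h) (hne a t' d')
    · exact absurd (ConjClasses.mk_eq_mk_iff_isConj.1 h).symm (hne a' t d)
    · obtain ⟨h1, h2⟩ := tr_det_of_isConj (ConjClasses.mk_eq_mk_iff_isConj.1 h)
      simp [comp_coe, Matrix.trace_fin_two, det_fin_two] at h1 h2
      rw [h1, Units.ext h2]
  have hsurj : Function.Surjective f := by
    intro C
    obtain ⟨g, rfl⟩ := ConjClasses.mk_surjective C
    by_cases hg : (g : M₂) 0 1 = 0 ∧ (g : M₂) 1 0 = 0 ∧ (g : M₂) 0 0 = (g : M₂) 1 1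
    · obtain ⟨h01, h10, h00⟩ := hg
      have h0 : (g : M₂) 0 0 ≠ 0 := fun e => det_ne_zero' g (by rw [e, h01]; simp)
      refine ⟨Sum.inl (Units.mk0 _ h0), congrArg ConjClasses.mk (Units.ext ?_)⟩
      rw [scal_coe]
      ext i j
      fin_cases i <;> fin_cases j <;> simp [h01, h10, h00]
    · exact ⟨Sum.inr ((g : M₂) 0 0 + (g : M₂) 1 1, detU g),
        ConjClasses.mk_eq_mk_iff_isConj.2 (isConj_comp g hg)⟩
  rw [← Nat.card_congr (Equiv.ofBijective f ⟨hinj, hsurj⟩), Nat.card_sum, Nat.card_prod,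
    Nat.card_units, Nat.card_eq_fintype_card]
  obtain ⟨m, hm⟩ : ∃ m, Fintype.card F = m + 1 :=
    ⟨Fintype.card F - 1, by have := Fintype.card_pos (α := F); omega⟩
  rw [hm, Nat.add_sub_cancel, show (m + 1) ^ 2 = m + (m + 1) * m + 1 by ring, Nat.add_sub_cancel]

theorem card_centralizer_diag [Fintype F] (g : G₂) (h01 : (g : M₂) 0 1 = 0) (h10 : (g : M₂) 1 0 = 0)
    (hne : (g : M₂) 0 0 ≠ (g : M₂) 1 1) :
    Nat.card (Subgroup.centralizer ({g} : Set G₂)) = (Fintype.card F - 1) ^ 2 := by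
  have hmem : ∀ k : G₂, k ∈ Subgroup.centralizer ({g} : Set G₂) ↔
      (k : M₂) 0 1 = 0 ∧ (k : M₂) 1 0 = 0 := by
    intro k
    rw [Subgroup.mem_centralizer_singleton_iff, Units.ext_iff, Units.val_mul, Units.val_mul]
    constructor
    · intro h
      have e1 := congrFun (congrFun h 0) 1
      have e2 := congrFun (congrFun h 1) 0
      simp [Matrix.mul_apply, Fin.sum_univ_two, h01, h10] at e1 e2
      constructor
      · by_contra hk
        exact hne (mul_left_cancel₀ hk (by linear_combination -e1))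
      · by_contra hk
        exact hne (mul_left_cancel₀ hk (by linear_combination e2))
    · rintro ⟨k01, k10⟩
      ext i j
      fin_cases i <;> fin_cases j <;> simp [Matrix.mul_apply, Fin.sum_univ_two, h01, h10, k01, k10, mul_comm]
  let f : Fˣ × Fˣ → Subgroup.centralizer ({g} : Set G₂) := fun p =>
    ⟨upper p.1 0 p.2, (hmem _).2 (by simp [upper_coe])⟩
  have hf : Function.Bijective f := by
    constructor
    · intro p p' e
      have e0 := congrArg (fun x : Subgroup.centralizer ({g} : Set G₂) => ((x : G₂) : M₂)) e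
      simp only [f, upper_coe] at e0
      have a0 := congrFun (congrFun e0 0) 0
      have a1 := congrFun (congrFun e0 1) 1
      simp at a0 a1
      exact Prod.ext (Units.ext a0) (Units.ext a1)
    · rintro ⟨k, hk⟩
      obtain ⟨k01, k10⟩ := (hmem k).1 hk
      have hd := det_ne_zero' k
      rw [k01, zero_mul, sub_zero] at hd
      refine ⟨(Units.mk0 _ (left_ne_zero_of_mul hd), Units.mk0 _ (right_ne_zero_of_mul hd)),
        Subtype.ext (Units.ext ?_)⟩
      simp only [f, upper_coe]
      ext i j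
      fin_cases i <;> fin_cases j <;> simp [k01, k10]
  rw [← Nat.card_congr (Equiv.ofBijective f hf), Nat.card_prod, Nat.card_units,
    Nat.card_eq_fintype_card, sq]

theorem card_centralizer_elliptic [Fintype F] (g : G₂)
    (hg : ∀ (c : F) (v : Fin 2 → F), v ≠ 0 → (g : M₂) *ᵥ v ≠ c • v) :
    Nat.card (Subgroup.centralizer ({g} : Set G₂)) = Fintype.card F ^ 2 - 1 := by
  classical
  set a := (g : M₂) 0 0 with ha
  set b := (g : M₂) 0 1 with hb
  set c := (g : M₂) 1 0 with hc
  set d := (g : M₂) 1 1 with hd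
  have hc0 : c ≠ 0 := by
    intro e
    refine hg a (Pi.single 0 1) (by simp) ?_
    ext i; fin_cases i <;> simp [mulVec_single, ← ha, ← hc, e]
  -- the determinant of `s + t g`
  have hdet : ∀ s t : F, (s, t) ≠ (0, 0) → (s + t * a) * (s + t * d) - (t * b) * (t * c) ≠ 0 := by
    intro s t hst e
    have ht : t ≠ 0 := by
      intro ht
      simp [ht] at e
      exact hst (by rw [e, ht])
    refine hg (-s / t) ![-(s + t * d), t * c] (fun h => hc0 ?_) ?_
    · have := congrFun h 1
      simpa [ht] using this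
    · ext i
      fin_cases i <;> simp [mulVec, dotProduct, ← ha, ← hb, ← hc, ← hd] <;> field_simp
      · linear_combination -e
      · ring
  let mk : {p : F × F // p ≠ (0, 0)} → G₂ := fun p => Matrix.GeneralLinearGroup.mkOfDetNeZero
    !![p.1.1 + p.1.2 * a, p.1.2 * b; p.1.2 * c, p.1.1 + p.1.2 * d]
    (by rw [det_fin_two_of]; exact hdet _ _ p.2)
  have hmk : ∀ p, mk p ∈ Subgroup.centralizer ({g} : Set G₂) := by
    intro p
    rw [Subgroup.mem_centralizer_singleton_iff, Units.ext_iff, Units.val_mul, Units.val_mul]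
    change !![p.1.1 + p.1.2 * a, p.1.2 * b; p.1.2 * c, p.1.1 + p.1.2 * d] * (g : M₂) =
      (g : M₂) * !![p.1.1 + p.1.2 * a, p.1.2 * b; p.1.2 * c, p.1.1 + p.1.2 * d]
    ext i j
    fin_cases i <;> fin_cases j <;>
      simp [Matrix.mul_apply, Fin.sum_univ_two, ← ha, ← hb, ← hc, ← hd] <;> ring
  let f : {p : F × F // p ≠ (0, 0)} → Subgroup.centralizer ({g} : Set G₂) :=
    fun p => ⟨mk p, hmk p⟩
  have hf : Function.Bijective f := by
    constructor
    · intro p p' e
      have e0 : ((mk p : G₂) : M₂) = ((mk p' : G₂) : M₂) :=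
        congrArg (fun x : Subgroup.centralizer ({g} : Set G₂) => ((x : G₂) : M₂)) e
      change !![p.1.1 + p.1.2 * a, p.1.2 * b; p.1.2 * c, p.1.1 + p.1.2 * d] =
        !![p'.1.1 + p'.1.2 * a, p'.1.2 * b; p'.1.2 * c, p'.1.1 + p'.1.2 * d] at e0
      have a0 := congrFun (congrFun e0 0) 0
      have a1 := congrFun (congrFun e0 1) 0
      simp at a0 a1
      have ht : p.1.2 = p'.1.2 := by rcases a1 with h | h; exacts [h, absurd h hc0]
      refine Subtype.ext (Prod.ext ?_ ht)
      rw [ht] at a0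
      simpa using a0
    · rintro ⟨k, hk⟩
      rw [Subgroup.mem_centralizer_singleton_iff, Units.ext_iff, Units.val_mul, Units.val_mul] at hk
      have e1 := congrFun (congrFun hk 1) 0
      have e2 := congrFun (congrFun hk 0) 0
      simp [Matrix.mul_apply, Fin.sum_univ_two, ← ha, ← hb, ← hc, ← hd] at e1 e2
      set t := (k : M₂) 1 0 / c with htdef
      set s := (k : M₂) 0 0 - t * a with hs
      have ek : (k : M₂) = !![s + t * a, t * b; t * c, s + t * d] := by
        ext i j
        fin_cases i <;> fin_cases j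
        · simp [hs]
        · simp [htdef]; field_simp; linear_combination e2
        · simp [htdef, hc0]
        · simp [hs, htdef]; field_simp; linear_combination e1
      refine ⟨⟨(s, t), fun e => ?_⟩, Subtype.ext (Units.ext ek.symm)⟩
      simp only [Prod.mk.injEq] at e
      apply det_ne_zero' k
      rw [ek, e.1, e.2]
      simp
  rw [← Nat.card_congr (Equiv.ofBijective f hf), Nat.card_eq_fintype_card, Fintype.card_subtype_compl,
    Fintype.card_prod, Fintype.card_subtype_eq, sq]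

end CfsgLib.InvCentralizers.GL2
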