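import Mathlib
import Cfsg.Prelude.Def_ParabolicCharacters
import Cfsg.Agent.Lib.InvCentralizers.GL2Classes
import Cfsg.Agent.Lib.CharDegrees.SL2Spectrum
import Cfsg.Agent.Lib.CharTheory.Linear
import Cfsg.Agent.Lib.CharTheory.Degree

/-!
The principal series of `GL₂(q)`.
-/

set_option autoImplicit false
set_option linter.unusedSectionVars false
set_option linter.style.haveILetI false

namespace CfsgLib.InvCentralizers.GL2

open Cfsg CfsgLib.CharTheory
open Matrix
open scoped MatrixGroups ComplexConjugate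

variable {F : Type*} [Field F] [Fintype F] [DecidableEq F]

local notation "M₂" => Matrix (Fin 2) (Fin 2) F
local notation "G₂" => Matrix.GeneralLinearGroup (Fin 2) F
local notation "q" => (Fintype.card F : ℂ)

noncomputable instance instFintypeBorelGL : Fintype (upperTriangularGL 2 F) := Fintype.ofFinite _

theorem mem_borel {g : G₂} : g ∈ upperTriangularGL 2 F ↔ (g : M₂) 1 0 = 0 := by
  constructor
  · intro h
    exact (h : (g : M₂).BlockTriangular id) (show (id (0 : Fin 2)) < id 1 by decide)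
  · intro h
    show (g : M₂).BlockTriangular id
    intro i j hij
    fin_cases i <;> fin_cases j <;> simp_all

/-- The principal series. -/
noncomputable abbrev ps (α β : MulChar F ℂ) : G₂ → ℂ :=
  Cfsg.indFun (upperTriangularGL 2 F) (fun b => α (((b : G₂) : M₂) 0 0) * β (((b : G₂) : M₂) 1 1))

theorem sum_upper (f : G₂ → ℂ) :
    ∑ b : upperTriangularGL 2 F, f b = ∑ a : Fˣ, ∑ d : Fˣ, ∑ x : F, f (upper a x d) := by
  rw [← Fintype.sum_prod_type' (f := fun a (w : Fˣ) => ∑ x : F, f (upper a x w)),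
    ← Fintype.sum_prod_type' (f := fun (p : Fˣ × Fˣ) x => f (upper p.1 x p.2))]
  symm
  refine Fintype.sum_bijective (fun w : (Fˣ × Fˣ) × F => (⟨upper w.1.1 w.2 w.1.2,
    mem_borel.2 (by simp [upper_coe])⟩ : upperTriangularGL 2 F)) ⟨?_, ?_⟩ _ _ (fun _ => rfl)
  · rintro ⟨⟨a, d⟩, x⟩ ⟨⟨a', d'⟩, x'⟩ h
    have h' : ((upper a x d : G₂) : M₂) = ((upper a' x' d' : G₂) : M₂) :=
      congrArg (fun z : upperTriangularGL 2 F => ((z : G₂) : M₂)) h
    rw [upper_coe, upper_coe] at h'
    have e0 := congrFun (congrFun h' 0) 0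
    have e1 := congrFun (congrFun h' 0) 1
    have e2 := congrFun (congrFun h' 1) 1
    simp at e0 e1 e2
    rw [Units.ext e0, Units.ext e2, e1]
  · rintro ⟨g, hg⟩
    have h10 := mem_borel.1 hg
    have hd := det_ne_zero' g
    rw [h10, mul_zero, sub_zero] at hd
    refine ⟨((Units.mk0 _ (left_ne_zero_of_mul hd), Units.mk0 _ (right_ne_zero_of_mul hd)),
      (g : M₂) 0 1), Subtype.ext (Units.ext ?_)⟩
    simp only [upper_coe]
    ext i j
    fin_cases i <;> fin_cases j <;> simp [h10]

theorem card_borel :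
    (Nat.card (upperTriangularGL 2 F) : ℂ) = q * (q - 1) ^ 2 := by
  have h := sum_upper (F := F) (fun _ => (1 : ℂ))
  simp only [Finset.sum_const, Finset.card_univ, nsmul_eq_mul, mul_one, Fintype.card_units,
    Nat.cast_sub Fintype.card_pos, Nat.cast_one] at h
  rw [Nat.card_eq_fintype_card, h]
  ring

theorem q_sub_one_ne_zero : q - 1 ≠ 0 := CfsgLib.CharDegrees.card_sub_one_ne_zero

theorem scale_ne_zero : q * (q - 1) ^ 2 ≠ 0 :=
  mul_ne_zero (Nat.cast_ne_zero.2 Fintype.card_ne_zero) (pow_ne_zero _ q_sub_one_ne_zero)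

/-- The value by eigenvectors. -/
theorem ps_apply (α β : MulChar F ℂ) (g : G₂) :
    ps α β g = (q - 1)⁻¹ * ∑ v : Fin 2 → F, ∑ c : F, if v ≠ 0 ∧ (g : M₂) *ᵥ v = c • v then
      α c * β (((g : M₂) 0 0 * (g : M₂) 1 1 - (g : M₂) 0 1 * (g : M₂) 1 0) / c) else 0 := by
  classical
  set e : Fin 2 → F := Pi.single 0 1 with he
  set δ := (g : M₂) 0 0 * (g : M₂) 1 1 - (g : M₂) 0 1 * (g : M₂) 1 0 with hδ
  have hinv : ∀ (x : G₂) (w : Fin 2 → F), ((x⁻¹ : G₂) : M₂) *ᵥ ((x : M₂) *ᵥ w) = w := by
    intro x w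
    rw [mulVec_mulVec, ← Units.val_mul, inv_mul_cancel, Units.val_one, one_mulVec]
  have hinv' : ∀ (x : G₂) (w : Fin 2 → F), (x : M₂) *ᵥ (((x⁻¹ : G₂) : M₂) *ᵥ w) = w := by
    intro x w
    rw [mulVec_mulVec, ← Units.val_mul, mul_inv_cancel, Units.val_one, one_mulVec]
  have hkey : ∀ x : G₂, Cfsg.extendByZero (upperTriangularGL 2 F)
      (fun b => α (((b : G₂) : M₂) 0 0) * β (((b : G₂) : M₂) 1 1)) (x⁻¹ * g * x) =
      ∑ c : F, if (g : M₂) *ᵥ ((x : M₂) *ᵥ e) = c • ((x : M₂) *ᵥ e) then α c * β (δ / c) else 0 := by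
    intro x
    set h := x⁻¹ * g * x with hh
    have hiff : ∀ c : F, (g : M₂) *ᵥ ((x : M₂) *ᵥ e) = c • ((x : M₂) *ᵥ e) ↔
        (h : M₂) 0 0 = c ∧ (h : M₂) 1 0 = 0 := by
      intro c
      have h1 : (h : M₂) *ᵥ e = c • e ↔ (h : M₂) 0 0 = c ∧ (h : M₂) 1 0 = 0 := by
        rw [funext_iff, Fin.forall_fin_two]
        simp [he, mulVec_single]
      rw [← h1, hh, Units.val_mul, Units.val_mul, ← mulVec_mulVec, ← mulVec_mulVec, ← mulVec_smul]
      constructor
      · intro e1
        rw [e1, hinv]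
      · intro e1
        have := congrArg ((x : M₂) *ᵥ ·) e1
        simpa only [hinv'] using this
    simp only [hiff]
    by_cases hb : (h : M₂) 1 0 = 0
    · have hdet : (h : M₂).det = δ := by
        rw [hh, Units.val_mul, Units.val_mul, Matrix.det_units_conj', det_fin_two]
      rw [det_fin_two, hb, mul_zero, sub_zero] at hdet
      have hd := det_ne_zero' h
      rw [hb, mul_zero, sub_zero] at hd
      rw [CfsgLib.Frobenius.extendByZero_of_mem _ _ (mem_borel.2 hb),
        Finset.sum_eq_single ((h : M₂) 0 0)]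
      · rw [if_pos ⟨rfl, hb⟩, ← hdet, mul_div_cancel_left₀ _ (left_ne_zero_of_mul hd)]
      · intro c _ hc; simp [Ne.symm hc]
      · simp
    · rw [CfsgLib.Frobenius.extendByZero_of_not_mem _ _ (mt mem_borel.1 hb)]
      simp [hb]
  have hsum : ∀ f : (Fin 2 → F) → ℂ, ∑ x : G₂, f ((x : M₂) *ᵥ e) =
      (q * (q - 1)) * ∑ v : Fin 2 → F, if v ≠ 0 then f v else 0 := by
    intro f
    rw [← Finset.sum_fiberwise Finset.univ (fun x : G₂ => (x : M₂) *ᵥ e), Finset.mul_sum]
    refine Finset.sum_congr rfl fun v _ => ?_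
    rw [Finset.sum_congr rfl (g := fun _ => f v) (fun x hx => by rw [(Finset.mem_filter.1 hx).2]),
      Finset.sum_const, nsmul_eq_mul]
    by_cases hv : v = 0
    · have : (Finset.univ.filter fun x : G₂ => (x : M₂) *ᵥ e = v) = ∅ := by
        rw [Finset.filter_eq_empty_iff]
        intro x _ hx
        rw [hv] at hx
        have := congrArg (((x⁻¹ : G₂) : M₂) *ᵥ ·) hx
        simp only [hinv, mulVec_zero] at this
        simpa [he] using congrFun this 0
      rw [this]
      simp [hv]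
    · rw [if_pos hv]
      congr 1
      obtain ⟨x₀, hx₀⟩ : ∃ x₀ : G₂, (x₀ : M₂) *ᵥ e = v := by
        by_cases h0 : v 0 = 0
        · have h1 : v 1 ≠ 0 := fun h1 => hv (by ext i; fin_cases i <;> assumption)
          refine ⟨Matrix.GeneralLinearGroup.mkOfDetNeZero !![0, 1; v 1, 0]
            (by simp [det_fin_two_of, h1]), ?_⟩
          change !![0, 1; v 1, 0] *ᵥ e = v
          ext i; fin_cases i <;> simp [he, mulVec_single, h0]
        · refine ⟨Matrix.GeneralLinearGroup.mkOfDetNeZero !![v 0, 0; v 1, 1]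
            (by simp [det_fin_two_of, h0]), ?_⟩
          change !![v 0, 0; v 1, 1] *ᵥ e = v
          ext i; fin_cases i <;> simp [he, mulVec_single]
      have hcard : (Finset.univ.filter fun x : G₂ => (x : M₂) *ᵥ e = v).card =
          (Finset.univ : Finset (F × Fˣ)).card := by
        symm
        refine Finset.card_bij (fun p _ => x₀ * upper 1 p.1 p.2) (fun p _ => ?_) (fun p _ p' _ hh => ?_)
          (fun x hx => ?_)
        · rw [Finset.mem_filter]
          refine ⟨Finset.mem_univ _, ?_⟩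
          rw [Units.val_mul, ← mulVec_mulVec,
            show ((upper 1 p.1 p.2 : G₂) : M₂) *ᵥ e = e by
              rw [upper_coe]; ext i; fin_cases i <;> simp [he, mulVec_single], hx₀]
        · have h' := congrArg (fun z : G₂ => (z : M₂)) (mul_left_cancel hh)
          simp only [upper_coe] at h'
          have e1 := congrFun (congrFun h' 0) 1
          have e2 := congrFun (congrFun h' 1) 1
          simp at e1 e2
          exact Prod.ext e1 (Units.ext e2)
        · set y := x₀⁻¹ * x with hy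
          have hye : (y : M₂) *ᵥ e = e := by
            rw [hy, Units.val_mul, ← mulVec_mulVec, (Finset.mem_filter.1 hx).2, ← hx₀, hinv]
          have h00 : (y : M₂) 0 0 = 1 := by simpa [he, mulVec_single] using congrFun hye 0
          have h10 : (y : M₂) 1 0 = 0 := by simpa [he, mulVec_single] using congrFun hye 1
          have hd := det_ne_zero' y
          rw [h10, mul_zero, sub_zero, h00, one_mul] at hd
          refine ⟨((y : M₂) 0 1, Units.mk0 _ hd), Finset.mem_univ _, ?_⟩
          have : upper 1 ((y : M₂) 0 1) (Units.mk0 _ hd) = y := by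
            apply Units.ext
            rw [upper_coe]
            ext i j; fin_cases i <;> fin_cases j <;> simp [h00, h10]
          rw [this, hy, mul_inv_cancel_left]
      rw [hcard, Finset.card_univ, Fintype.card_prod, Fintype.card_units, Nat.cast_mul,
        Nat.cast_sub Fintype.card_pos, Nat.cast_one]
  unfold ps Cfsg.indFun
  rw [Finset.sum_congr rfl (fun x _ => hkey x),
    hsum fun v => ∑ c : F, if (g : M₂) *ᵥ v = c • v then α c * β (δ / c) else 0, card_borel]
  have hq : q ≠ 0 := Nat.cast_ne_zero.2 Fintype.card_ne_zero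
  have := q_sub_one_ne_zero (F := F)
  rw [← mul_assoc, show (q * (q - 1) ^ 2)⁻¹ * (q * (q - 1)) = (q - 1)⁻¹ by field_simp]
  congr 1
  refine Finset.sum_congr rfl fun v _ => ?_
  by_cases hv : v = 0 <;> simp [hv]

theorem ps_of_no_eigenvector (α β : MulChar F ℂ) (g : G₂)
    (h : ∀ (c : F) (v : Fin 2 → F), v ≠ 0 → (g : M₂) *ᵥ v ≠ c • v) : ps α β g = 0 := by
  rw [ps_apply, Finset.sum_eq_zero, mul_zero]
  intro v _
  exact Finset.sum_eq_zero fun c _ => if_neg fun hh => h c v hh.1 hh.2

/-- The value on the Borel subgroup. -/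
theorem ps_upper (α β : MulChar F ℂ) (g : G₂) (h10 : (g : M₂) 1 0 = 0) :
    ps α β g = if (g : M₂) 0 0 = (g : M₂) 1 1 then
        (if (g : M₂) 0 1 = 0 then q + 1 else 1) * (α ((g : M₂) 0 0) * β ((g : M₂) 0 0))
      else α ((g : M₂) 0 0) * β ((g : M₂) 1 1) + α ((g : M₂) 1 1) * β ((g : M₂) 0 0) := by
  classical
  have hd0 := det_ne_zero' g
  rw [h10, mul_zero, sub_zero] at hd0
  rw [ps_apply, inv_mul_eq_iff_eq_mul₀ q_sub_one_ne_zero, h10]
  simp only [mul_zero, sub_zero]
  set a := (g : M₂) 0 0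
  set b := (g : M₂) 0 1
  set d := (g : M₂) 1 1
  have ha : a ≠ 0 := left_ne_zero_of_mul hd0
  have hd : d ≠ 0 := right_ne_zero_of_mul hd0
  have hiff : ∀ (v : Fin 2 → F) (c : F), (g : M₂) *ᵥ v = c • v ↔
      a * v 0 + b * v 1 = c * v 0 ∧ d * v 1 = c * v 1 := by
    intro v c
    rw [funext_iff, Fin.forall_fin_two]
    simp [mulVec, dotProduct, h10, a, b, d]
  simp only [hiff]
  rw [← (finTwoArrowEquiv F).symm.sum_comp, Fintype.sum_prod_type, Finset.sum_comm,
    ← Finset.add_sum_erase Finset.univ _ (Finset.mem_univ (0 : F))]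
  have hzero : ∑ x : F, ∑ c : F, (if (finTwoArrowEquiv F).symm (x, 0) ≠ 0 ∧
      a * (finTwoArrowEquiv F).symm (x, 0) 0 + b * (finTwoArrowEquiv F).symm (x, 0) 1 =
        c * (finTwoArrowEquiv F).symm (x, 0) 0 ∧
      d * (finTwoArrowEquiv F).symm (x, 0) 1 = c * (finTwoArrowEquiv F).symm (x, 0) 1
      then α c * β (a * d / c) else 0) = (q - 1) * (α a * β d) := by
    rw [Finset.sum_congr rfl (g := fun x : F => if x = 0 then 0 else α a * β d)]
    · rw [Finset.sum_ite, Finset.sum_const_zero, zero_add, Finset.sum_const, nsmul_eq_mul,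
        Finset.filter_ne', Finset.card_erase_of_mem (Finset.mem_univ _), Finset.card_univ,
        Nat.cast_sub Fintype.card_pos, Nat.cast_one]
    · intro x _
      by_cases hx0 : x = 0
      · simp [hx0]
      · rw [if_neg hx0, Finset.sum_eq_single a]
        · simp [hx0, mul_div_cancel_left₀ d ha]
        · intro c _ hc
          simp [hx0, Ne.symm hc]
        · simp
  have hne : ∀ y ∈ Finset.univ.erase (0 : F), ∑ x : F, ∑ c : F, (if (finTwoArrowEquiv F).symm (x, y) ≠ 0 ∧
      a * (finTwoArrowEquiv F).symm (x, y) 0 + b * (finTwoArrowEquiv F).symm (x, y) 1 =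
        c * (finTwoArrowEquiv F).symm (x, y) 0 ∧
      d * (finTwoArrowEquiv F).symm (x, y) 1 = c * (finTwoArrowEquiv F).symm (x, y) 1
      then α c * β (a * d / c) else 0) =
      if a = d then (if b = 0 then q * (α d * β a) else 0) else α d * β a := by
    intro y hy
    have hy0 := (Finset.mem_erase.1 hy).1
    rw [Finset.sum_congr rfl (g := fun x : F => if a * x + b * y = d * x then α d * β a else 0)
      (fun x _ => by
      rw [Finset.sum_eq_single d]
      · simp [hy0, mul_div_cancel_right₀ a hd]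
      · intro c _ hc
        simp [hy0, Ne.symm hc]
      · simp)]
    by_cases had : a = d
    · rw [if_pos had]
      by_cases hb : b = 0
      · simp [had, hb]
      · simp [had, hb, hy0]
    · rw [if_neg had, Finset.sum_eq_single (b * y / (d - a))]
      · rw [if_pos]
        field_simp [sub_ne_zero.2 (Ne.symm had)]
        ring
      · intro x _ hx
        rw [if_neg]
        intro h
        apply hx
        rw [eq_div_iff (sub_ne_zero.2 (Ne.symm had))]
        linear_combination -h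
      · simp
  rw [hzero, Finset.sum_congr rfl hne, Finset.sum_const, Finset.card_erase_of_mem (Finset.mem_univ _),
    Finset.card_univ, nsmul_eq_mul, Nat.cast_sub Fintype.card_pos, Nat.cast_one]
  by_cases had : a = d
  · by_cases hb : b = 0 <;> simp [had, hb] <;> ring
  · simp [had]; ring

theorem ps_apply_one (α β : MulChar F ℂ) : ps α β (1 : G₂) = q + 1 := by
  rw [ps_upper α β 1 (by simp), if_pos (by simp), if_pos (by simp)]
  simp

theorem ps_isClassFun (α β : MulChar F ℂ) : IsClassFunction G₂ (ps α β) :=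
  CfsgLib.Frobenius.indFun_isClassFunction _ _

theorem ps_isChar (α β : MulChar F ℂ) : IsCharacter G₂ (ps α β) := by
  refine CfsgLib.Frobenius.isCharacter_indFun _ _ ?_
  let μ : upperTriangularGL 2 F →* ℂ :=
    { toFun := fun b => α (((b : G₂) : M₂) 0 0) * β (((b : G₂) : M₂) 1 1)
      map_one' := by simp
      map_mul' := fun b c => by
        have hb : ((b : G₂) : M₂) 1 0 = 0 := mem_borel.1 b.2
        have hc : ((c : G₂) : M₂) 1 0 = 0 := mem_borel.1 c.2
        simp [Matrix.mul_apply, Fin.sum_univ_two, hb, hc, map_mul]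
        ring }
  exact IsIrrCharacter.isCharacter (isIrrCharacter_linear μ.toHomUnits)

/-- Frobenius reciprocity. -/
theorem classInner_ps {χ : G₂ → ℂ} (hχ : IsClassFunction _ χ) (α β : MulChar F ℂ) :
    classInner χ (ps α β) = (q * (q - 1) ^ 2)⁻¹ *
      ∑ a : Fˣ, ∑ d : Fˣ, (α ((a⁻¹ : Fˣ) : F) * β ((d⁻¹ : Fˣ) : F)) * ∑ x : F, χ (upper a x d) := by
  rw [CfsgLib.Frobenius.classInner_indFun_right _ _ _ hχ, classInner, card_borel]
  congr 1
  rw [sum_upper (fun g => χ g * conj (α ((g : M₂) 0 0) * β ((g : M₂) 1 1)))]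
  refine Finset.sum_congr rfl fun a _ => Finset.sum_congr rfl fun d _ => ?_
  rw [Finset.mul_sum]
  refine Finset.sum_congr rfl fun x _ => ?_
  rw [upper_coe]
  simp [CfsgLib.CharDegrees.conj_mulChar]
  ring

theorem sum_ps_upper (γ δ : MulChar F ℂ) (a d : Fˣ) :
    ∑ x : F, ps γ δ (upper a x d) =
      q * (γ (a : F) * δ (d : F) + γ (d : F) * δ (a : F)) := by
  have h : ∀ x, ps γ δ (upper a x d) = if (a : F) = d then
      (if x = 0 then q + 1 else 1) * (γ (a : F) * δ (a : F))
      else γ (a : F) * δ (d : F) + γ (d : F) * δ (a : F) := by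
    intro x
    rw [ps_upper γ δ _ (by simp [upper_coe])]
    simp [upper_coe]
  simp only [h]
  by_cases ha : (a : F) = d
  · simp only [if_pos ha, ← Finset.sum_mul]
    rw [Finset.sum_congr rfl (g := fun x : F => (1 : ℂ) + if x = 0 then q else 0)
      (fun x _ => by by_cases hx : x = 0 <;> simp [hx, add_comm]), Finset.sum_add_distrib,
      Finset.sum_ite_eq', if_pos (Finset.mem_univ _), Finset.sum_const, Finset.card_univ, ← ha]
    simp
    ring
  · simp only [if_neg ha, Finset.sum_const, Finset.card_univ, nsmul_eq_mul]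

theorem sum_pair (γ δ α β : MulChar F ℂ) [Decidable (γ = α ∧ δ = β)] :
    ∑ a : Fˣ, ∑ d : Fˣ, (α ((a⁻¹ : Fˣ) : F) * β ((d⁻¹ : Fˣ) : F)) * (γ (a : F) * δ (d : F)) =
      if γ = α ∧ δ = β then (q - 1) ^ 2 else 0 := by
  classical
  have e : ∀ (α γ : MulChar F ℂ) (a : Fˣ), α ((a⁻¹ : Fˣ) : F) * γ (a : F) = (α⁻¹ * γ) (a : F) := by
    intro α γ a
    rw [MulChar.mul_apply, MulChar.inv_apply, Ring.inverse_unit]
  have h : ∀ a d : Fˣ, (α ((a⁻¹ : Fˣ) : F) * β ((d⁻¹ : Fˣ) : F)) * (γ (a : F) * δ (d : F)) =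
      (α⁻¹ * γ) (a : F) * (β⁻¹ * δ) (d : F) := by
    intro a d
    rw [← e, ← e]; ring
  simp only [h, ← Finset.mul_sum, ← Finset.sum_mul, CfsgLib.CharDegrees.sum_units_mulChar,
    inv_mul_eq_one, eq_comm (a := α) (b := γ), eq_comm (a := β) (b := δ)]
  by_cases h1 : γ = α <;> by_cases h2 : δ = β <;> simp [h1, h2, sq]

theorem classInner_ps_ps (γ δ α β : MulChar F ℂ) [Decidable (γ = α ∧ δ = β)]
    [Decidable (δ = α ∧ γ = β)] :
    classInner (ps γ δ) (ps α β) =
      (if γ = α ∧ δ = β then (1 : ℂ) else 0) + if δ = α ∧ γ = β then (1 : ℂ) else 0 := by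
  classical
  rw [classInner_ps (ps_isClassFun γ δ)]
  simp only [sum_ps_upper]
  have h : ∀ a d : Fˣ, (α ((a⁻¹ : Fˣ) : F) * β ((d⁻¹ : Fˣ) : F)) *
      (q * (γ (a : F) * δ (d : F) + γ (d : F) * δ (a : F))) =
      q * ((α ((a⁻¹ : Fˣ) : F) * β ((d⁻¹ : Fˣ) : F)) * (γ (a : F) * δ (d : F))) +
        q * ((α ((a⁻¹ : Fˣ) : F) * β ((d⁻¹ : Fˣ) : F)) * (δ (a : F) * γ (d : F))) := by
    intro a d; ring
  simp only [h, Finset.sum_add_distrib, ← Finset.mul_sum, sum_pair]
  have hq : q ≠ 0 := Nat.cast_ne_zero.2 Fintype.card_ne_zero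
  have := q_sub_one_ne_zero (F := F)
  split_ifs <;> field_simp <;> ring

/-- The character `α ∘ det`. -/
noncomputable def detChar (α : MulChar F ℂ) : G₂ → ℂ := fun g =>
  α ((g : M₂) 0 0 * (g : M₂) 1 1 - (g : M₂) 0 1 * (g : M₂) 1 0)

theorem detChar_isIrr (α : MulChar F ℂ) : IsIrrCharacter G₂ (detChar α) := by
  let μ : G₂ →* ℂ :=
    { toFun := detChar α
      map_one' := by simp [detChar]
      map_mul' := fun g h => by
        simp only [detChar, ← det_fin_two, Units.val_mul, Matrix.det_mul, map_mul] }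
  exact isIrrCharacter_linear μ.toHomUnits

theorem classInner_det_ps (γ α β : MulChar F ℂ) [Decidable (γ = α ∧ γ = β)] :
    classInner (detChar γ) (ps α β) = if γ = α ∧ γ = β then 1 else 0 := by
  classical
  rw [classInner_ps (IsIrrCharacter.isClassFunction (detChar_isIrr γ))]
  have h : ∀ a d : Fˣ, ∑ x : F, detChar γ (upper a x d) = q * (γ (a : F) * γ (d : F)) := by
    intro a d
    simp [detChar, upper_coe, map_mul]
  simp only [h]
  have h' : ∀ a d : Fˣ, (α ((a⁻¹ : Fˣ) : F) * β ((d⁻¹ : Fˣ) : F)) * (q * (γ (a : F) * γ (d : F))) =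
      q * ((α ((a⁻¹ : Fˣ) : F) * β ((d⁻¹ : Fˣ) : F)) * (γ (a : F) * γ (d : F))) := by
    intro a d; ring
  simp only [h', ← Finset.mul_sum, sum_pair]
  have hq : q ≠ 0 := Nat.cast_ne_zero.2 Fintype.card_ne_zero
  have := q_sub_one_ne_zero (F := F)
  split_ifs <;> field_simp <;> ring

theorem detChar_apply_one (α : MulChar F ℂ) : detChar α (1 : G₂) = 1 := by simp [detChar]

theorem ps_irr {α β : MulChar F ℂ} (h : α ≠ β) : IsIrrCharacter G₂ (ps α β) := by
  classical
  rw [isIrrCharacter_iff_norm_one (ps_isChar α β), classInner_ps_ps, if_pos ⟨rfl, rfl⟩,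
    if_neg (fun e => h e.2), add_zero]

theorem st_irr (α : MulChar F ℂ) : IsIrrCharacter G₂ (ps α α - detChar α) := by
  classical
  refine isIrrCharacter_of_norm_one ?_ ?_ ?_
  · exact ⟨_, _, ps_isChar α α, IsIrrCharacter.isCharacter (detChar_isIrr α), rfl⟩
  · rw [classInner_sub_left, classInner_sub_right, classInner_sub_right,
      classInner_conj_symm (ps α α) (detChar α), classInner_det_ps, classInner_ps_ps,
      if_pos ⟨rfl, rfl⟩, classInner_self_of_isIrr (detChar_isIrr α)]
    simp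
  · rw [Pi.sub_apply, ps_apply_one, detChar_apply_one]
    simp
    exact Nat.cast_pos.2 Fintype.card_pos

theorem ps_eq_iff (α β α' β' : MulChar F ℂ) :
    ps α β = ps α' β' ↔ (α = α' ∧ β = β') ∨ (α = β' ∧ β = α') := by
  classical
  constructor
  · intro h
    by_contra hc
    push Not at hc
    have e := classInner_ps_ps α β α' β'
    rw [if_neg (fun p => hc.1 p.1 p.2), if_neg (fun p => hc.2 p.2 p.1), add_zero, ← h,
      classInner_ps_ps, if_pos ⟨rfl, rfl⟩] at e
    split_ifs at e <;> norm_num at e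
  · rintro (⟨rfl, rfl⟩ | ⟨rfl, rfl⟩)
    · rfl
    · refine CfsgLib.CharDegrees.eq_of_classInner ?_ ?_ <;>
      · rw [classInner_ps_ps, classInner_ps_ps]
        by_cases e : α = β <;> simp [e, Ne.symm]

theorem ps_swap (α β : MulChar F ℂ) : ps α β = ps β α :=
  (ps_eq_iff α β β α).2 (Or.inr ⟨rfl, rfl⟩)

/-- Summing the reciprocity formula over all pairs of characters. -/
theorem sum_upper_eq_zero {χ : G₂ → ℂ} (hχ : IsClassFunction _ χ)
    (h0 : ∀ α β, classInner χ (ps α β) = 0) (a d : Fˣ) : ∑ x : F, χ (upper a x d) = 0 := by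
  classical
  have h : ∑ α : MulChar F ℂ, ∑ β : MulChar F ℂ,
      (α (a : F) * β (d : F)) * classInner χ (ps α β) = (q : ℂ)⁻¹ * ∑ x : F, χ (upper a x d) := by
    simp only [classInner_ps hχ, Finset.mul_sum]
    rw [Finset.sum_congr rfl fun α _ => Finset.sum_comm]
    rw [Finset.sum_comm]
    have h1 : ∀ a' : Fˣ, ∑ α : MulChar F ℂ, ∑ β : MulChar F ℂ, ∑ d' : Fˣ, ∑ x : F,
        α (a : F) * β (d : F) * ((q * (q - 1) ^ 2)⁻¹ *
          (α ((a'⁻¹ : Fˣ) : F) * β ((d'⁻¹ : Fˣ) : F) * χ (upper a' x d'))) =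
        ∑ d' : Fˣ, ∑ x : F, (∑ α : MulChar F ℂ, α ((a * a'⁻¹ : Fˣ) : F)) *
          (∑ β : MulChar F ℂ, β ((d * d'⁻¹ : Fˣ) : F)) * ((q * (q - 1) ^ 2)⁻¹ * χ (upper a' x d')) := by
      intro a'
      rw [Finset.sum_congr rfl fun α _ => Finset.sum_comm, Finset.sum_comm]
      refine Finset.sum_congr rfl fun d' _ => ?_
      rw [Finset.sum_congr rfl fun α _ => Finset.sum_comm, Finset.sum_comm]
      refine Finset.sum_congr rfl fun x _ => ?_
      rw [Finset.sum_mul_sum, Finset.sum_mul]
      refine Finset.sum_congr rfl fun α _ => ?_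
      rw [Finset.sum_mul]
      refine Finset.sum_congr rfl fun β _ => ?_
      rw [Units.val_mul, Units.val_mul, map_mul, map_mul]
      ring
    rw [Finset.sum_congr rfl fun a' _ => h1 a']
    simp only [CfsgLib.CharDegrees.sum_mulChar, mul_inv_eq_one, ite_mul, zero_mul, mul_ite, mul_zero,
      Finset.sum_ite_irrel, Finset.sum_const_zero, Finset.sum_ite_eq, Finset.mem_univ, if_true]
    refine Finset.sum_congr rfl fun x _ => ?_
    have hq : q ≠ 0 := Nat.cast_ne_zero.2 Fintype.card_ne_zero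
    have := q_sub_one_ne_zero (F := F)
    field_simp
  simp only [h0, mul_zero, Finset.sum_const_zero] at h
  exact (mul_eq_zero.1 h.symm).resolve_left (inv_ne_zero (Nat.cast_ne_zero.2 Fintype.card_ne_zero))

end CfsgLib.InvCentralizers.GL2
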