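import Cfsg.Agent.Lib.InvCentralizers.HeckeWeyl
import Cfsg.Agent.Lib.BlockLocal.Covering
import Cfsg.Agent.Lib.CharTheory.Orthogonality
import Cfsg.Agent.Lib.Frobenius.Induce

/-!
The number of irreducible constituents of the permutation character on the cosets of the Borel
subgroup equals the number of conjugacy classes of the Weyl group.
-/

set_option autoImplicit false
set_option linter.unusedSectionVars false
set_option linter.style.haveILetI false

namespace CfsgLib.InvCentralizers.HeckeCentre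

open CfsgLib.BNPair CfsgLib.InvCentralizers.HeckeGeneric CfsgLib.InvCentralizers.HeckeWeyl
open CfsgLib.Blocks MonoidAlgebra Matrix CfsgLib.CharTheory
open scoped ComplexConjugate

variable {G : Type*} [Group G] [Fintype G] {P : Cfsg.BNPair G}
variable [hN : ((P.B ⊓ P.N).subgroupOf P.N).Normal] [DecidableEq (Weyl P)] {q : ℕ}

theorem coeff_T' (w : Weyl P) (x : G) :
    (T w).coeff x = if (cl x : Weyl P) = w then (Nat.card P.B : ℂ)⁻¹ else 0 := by
  rw [coeff_T]; congr

theorem T_eq (w : Weyl P) : T w = (Nat.card P.B : ℂ)⁻¹ • E P (Pi.single w 1) :=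
  MonoidAlgebra.ext (Finsupp.ext fun x => by
    rw [coeff_T', coeff_smul_apply, coeff_E, Pi.single_apply, smul_eq_mul, mul_ite, mul_one, mul_zero])

theorem T_one_mul_T (w : Weyl P) : T (1 : Weyl P) * T w = T w := by
  rw [T_eq w, mul_smul_comm, T_one_mul_E]

theorem T_mul_T_one (w : Weyl P) : T w * T (1 : Weyl P) = T w := by
  rw [T_eq w, smul_mul_assoc, E_mul_T_one]

/-- The augmentation. -/
noncomputable def aug (a : MonoidAlgebra ℂ G) : ℂ := ∑ x, a.coeff x

theorem aug_mul (a b : MonoidAlgebra ℂ G) : aug (a * b) = aug a * aug b := by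
  simp only [aug, coeff_mul_eq_sum, Finset.mul_sum, Finset.sum_mul]
  rw [Finset.sum_comm]
  conv_rhs => rw [Finset.sum_comm]
  refine Finset.sum_congr rfl fun x _ => ?_
  exact Fintype.sum_equiv (Equiv.mulLeft x⁻¹) _ _ fun y => rfl

theorem aug_single (x : G) : aug (single x (1 : ℂ)) = 1 := by
  simp [aug, coeff_single, Finsupp.single_apply]

theorem card_filter_one : (Finset.univ.filter fun x : G => (cl x : Weyl P) = 1).card = Nat.card P.B := by
  classical
  rw [← Fintype.card_subtype, ← Nat.card_eq_fintype_card]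
  exact Nat.card_congr (Equiv.subtypeEquivRight fun x => cl_eq_one)

theorem aug_T (w : Weyl P) :
    aug (T w) = ((Finset.univ.filter fun x : G => (cl x : Weyl P) = w).card : ℂ) *
      (Nat.card P.B : ℂ)⁻¹ := by
  simp only [aug, coeff_T', ← Finset.sum_filter, Finset.sum_const, nsmul_eq_mul]

theorem aug_T_one : aug (T (1 : Weyl P)) = 1 := by
  rw [aug_T, card_filter_one, mul_inv_cancel₀ card_B_ne_zero]

variable (hq : ∀ s ∈ P.S, Nat.card (cell P s) = q * Nat.card P.B)
include hq

theorem T_step {i : P.S} {w : Weyl P} (h : wlen w < wlen (weylGen P i * w)) :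
    T (weylGen P i * w) = T (weylGen P i) * T w := by
  rw [T_eq, T_eq w, mul_smul_comm, ← E_L hq]
  congr 2
  funext x
  rw [Matrix.mulVec_single_one, Matrix.col_apply]
  simp only [L, Matrix.of_apply, show (datum P).s = weylGen P from rfl,
    show (datum P).len = wlen from rfl, if_pos h, Pi.single_apply]

theorem T_stepR {i : P.S} {w : Weyl P} (h : wlen w < wlen (w * weylGen P i)) :
    T (w * weylGen P i) = T w * T (weylGen P i) := by
  rw [T_eq, T_eq w, smul_mul_assoc, ← E_Rt hq]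
  congr 2
  funext x
  rw [Matrix.mulVec_single_one, Matrix.col_apply]
  simp only [Rt, Matrix.of_apply, show (datum P).s = weylGen P from rfl,
    show (datum P).len = wlen from rfl, if_pos h, Pi.single_apply]

theorem aug_T_eq (w : Weyl P) : aug (T w) = (q : ℂ) ^ wlen w := by
  classical
  obtain ⟨l, hl, rfl⟩ := HeckeGeneric.exists_reduced (datum P) w
  induction l with
  | nil =>
    have : wlen (1 : Weyl P) = 0 := (datum P).len_one
    simp [wprod, this, aug_T_one]
  | cons i l ih =>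
    have e1 : wlen (wprod (datum P) (i :: l)) = l.length + 1 := hl
    have e2 : wlen (wprod (datum P) l) = l.length := hl.tail
    rw [wprod_cons] at e1 ⊢
    change wlen (weylGen P i * _) = _ at e1
    change aug (T (weylGen P i * _)) = _ ^ wlen (weylGen P i * _)
    rw [T_step hq (by omega), aug_mul, ih hl.tail, e1, e2, pow_succ']
    congr 1
    rw [aug_T, show (Finset.univ.filter fun x : G => (cl x : Weyl P) = weylGen P i).card =
      q * Nat.card P.B by
        rw [← hq _ i.2, ← Fintype.card_subtype, ← Nat.card_eq_fintype_card]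
        exact Nat.card_congr (Equiv.subtypeEquivRight fun y => cl_eq_gen i),
      Nat.cast_mul, mul_assoc, mul_inv_cancel₀ card_B_ne_zero, mul_one]

theorem card_cl_fiber (w : Weyl P) :
    ((Finset.univ.filter fun x : G => (cl x : Weyl P) = w).card : ℂ) =
      (Nat.card P.B : ℂ) * (q : ℂ) ^ wlen w := by
  rw [← aug_T_eq hq w, aug_T, mul_left_comm, mul_inv_cancel₀ card_B_ne_zero, mul_one]

theorem sandwich (hq0 : q ≠ 0) (x : G) :
    T (1 : Weyl P) * single x (1 : ℂ) * T (1 : Weyl P) =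
      ((q : ℂ) ^ wlen (cl x : Weyl P))⁻¹ • T (cl x : Weyl P) := by
  classical
  set a := T (1 : Weyl P) * single x (1 : ℂ) * T (1 : Weyl P) with ha
  have hform : ∀ g : G, a.coeff g = (Nat.card P.B : ℂ)⁻¹ * ∑ c : P.B, (Nat.card P.B : ℂ)⁻¹ *
      ∑ b : P.B, (if (b : G)⁻¹ * (g * c) = x then (1 : ℂ) else 0) := by
    intro g
    rw [ha, coeff_mul_T_one]
    congr 1
    refine Finset.sum_congr rfl fun c _ => ?_
    rw [coeff_T_one_mul]
    simp [coeff_single, Finsupp.single_apply, eq_comm]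
  have hleft : ∀ b₀ ∈ P.B, ∀ g, a.coeff (b₀ * g) = a.coeff g := by
    intro b₀ hb g
    rw [hform, hform]
    congr 1
    refine Finset.sum_congr rfl fun c _ => ?_
    congr 1
    refine Fintype.sum_equiv (Equiv.mulLeft (⟨b₀, hb⟩ : P.B)⁻¹) _ _ fun b => ?_
    simp [mul_assoc]
  have hright : ∀ c₀ ∈ P.B, ∀ g, a.coeff (g * c₀) = a.coeff g := by
    intro c₀ hc g
    rw [hform, hform]
    congr 1
    refine Fintype.sum_equiv (Equiv.mulLeft (⟨c₀, hc⟩ : P.B)) _ _ fun c => ?_
    simp only [Equiv.coe_mulLeft, Subgroup.coe_mul, mul_assoc]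
    congr!
  have hzero : ∀ g : G, (cl g : Weyl P) ≠ cl x → a.coeff g = 0 := by
    intro g hg
    rw [hform, Finset.sum_eq_zero fun c _ => ?_, mul_zero]
    rw [Finset.sum_eq_zero fun b _ => if_neg fun e => hg ?_, mul_zero]
    rw [← e, cl_left_mul (P.B.inv_mem b.2), cl_right_mul c.2]
  have hconst : ∀ g : G, (cl g : Weyl P) = cl x → a.coeff g = a.coeff x := by
    intro g hg
    obtain ⟨n, hn⟩ : ∃ n : P.N, (cl x : Weyl P) = QuotientGroup.mk n := ⟨_, (Quotient.out_eq _).symm⟩
    obtain ⟨b, hb, c, hc, rfl⟩ := mem_cell.1 ((mem_cell_iff (x := g)).2 (hg.trans hn))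
    obtain ⟨b', hb', c', hc', e⟩ := mem_cell.1 ((mem_cell_iff (x := x)).2 hn)
    rw [hright c hc, hleft b hb, e, hright c' hc', hleft b' hb']
  have hsum : aug a = 1 := by rw [ha, aug_mul, aug_mul, aug_T_one, aug_single, one_mul, one_mul]
  have hK : a.coeff x * ((Nat.card P.B : ℂ) * (q : ℂ) ^ wlen (cl x : Weyl P)) = 1 := by
    rw [← card_cl_fiber hq, ← hsum, aug, ← Finset.sum_filter_add_sum_filter_not Finset.univ
      (fun g : G => (cl g : Weyl P) = cl x),
      Finset.sum_congr rfl (fun g hg => hconst g (Finset.mem_filter.1 hg).2),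
      Finset.sum_eq_zero (s := Finset.filter _ _) (fun g hg => hzero g (Finset.mem_filter.1 hg).2),
      Finset.sum_const, nsmul_eq_mul, add_zero, mul_comm]
  refine MonoidAlgebra.ext (Finsupp.ext fun g => ?_)
  rw [coeff_smul_apply, coeff_T', smul_eq_mul]
  split_ifs with hg
  · rw [hconst g hg, eq_comm, ← mul_inv, mul_comm ((q : ℂ) ^ _)]
    exact (eq_inv_of_mul_eq_one_left hK).symm
  · rw [mul_zero]; exact hzero g hg

omit hq

/-- The sum of the conjugates. -/
noncomputable def S (a : MonoidAlgebra ℂ G) : MonoidAlgebra ℂ G :=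
  ∑ x : G, single x (1 : ℂ) * a * single x⁻¹ (1 : ℂ)

theorem isClassElem_S (a : MonoidAlgebra ℂ G) : IsClassElem (S a) := by
  refine isClassElem_iff_commute.2 fun h => ?_
  show single h (1 : ℂ) * S a = S a * single h (1 : ℂ)
  rw [S, Finset.mul_sum, Finset.sum_mul]
  refine Fintype.sum_equiv (Equiv.mulLeft h) _ _ fun x => ?_
  simp only [Equiv.coe_mulLeft, _root_.mul_inv_rev, ← mul_assoc, single_mul_single, one_mul]
  simp only [mul_assoc, single_mul_single, mul_one, inv_mul_cancel_right, one_mul]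
  simp [mul_assoc]

include hq

theorem E_C (v : Weyl P → ℂ) (w : Weyl P) :
    E P (C (datum P) (q : ℂ) w *ᵥ v) = T w * E P v * T w⁻¹ := by
  obtain ⟨l, hl, rfl⟩ := HeckeGeneric.exists_reduced (datum P) w
  induction l with
  | nil => simp [wprod, C_one, T_one_mul_E, E_mul_T_one]
  | cons i l ih =>
    have e1 : wlen (wprod (datum P) (i :: l)) = l.length + 1 := hl
    have e2 : wlen (wprod (datum P) l) = l.length := hl.tail
    rw [wprod_cons] at e1 ⊢
    change wlen (weylGen P i * _) = _ at e1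
    have hlt : wlen (wprod (datum P) l) < wlen (weylGen P i * wprod (datum P) l) := by omega
    have einv : ((datum P).s i * wprod (datum P) l)⁻¹ = (wprod (datum P) l)⁻¹ * weylGen P i := by
      rw [_root_.mul_inv_rev, (datum P).s_inv]; rfl
    have hltR : wlen (wprod (datum P) l)⁻¹ < wlen ((wprod (datum P) l)⁻¹ * weylGen P i) := by
      rw [← einv]
      show wlen _ < wlen _
      rw [show wlen (wprod (datum P) l)⁻¹ = _ from (datum P).inv _,
        show wlen ((datum P).s i * wprod (datum P) l)⁻¹ = _ from (datum P).inv _]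
      exact hlt
    rw [C_step (datum P) _ hlt, ← Matrix.mulVec_mulVec, ← Matrix.mulVec_mulVec, E_L hq, E_Rt hq,
      ih hl.tail, einv, T_stepR hq hltR]
    show _ = T (weylGen P i * _) * _ * _
    rw [T_step hq hlt]
    simp only [mul_assoc]

theorem E_Phi (v : Weyl P → ℂ) :
    E P (Phi (datum P) (q : ℂ) *ᵥ v) =
      ∑ w : Weyl P, (q : ℂ) ^ (bound (datum P) - wlen w) • (T w * E P v * T w⁻¹) := by
  rw [Phi, Matrix.sum_mulVec, map_sum]
  refine Finset.sum_congr rfl fun w _ => ?_
  rw [Matrix.smul_mulVec, map_smul, E_C hq]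
  rfl

theorem E_Phi_eq (hq0 : q ≠ 0) (v : Weyl P → ℂ) :
    E P (Phi (datum P) (q : ℂ) *ᵥ v) =
      ((q : ℂ) ^ bound (datum P) / Nat.card P.B) • (T (1 : Weyl P) * S (E P v)) := by
  classical
  have hq' : (q : ℂ) ≠ 0 := Nat.cast_ne_zero.2 hq0
  have hc : Commute (T (1 : Weyl P)) (S (E P v)) := IsClassElem.commute (isClassElem_S _) _
  have h1 : T (1 : Weyl P) * T (1 : Weyl P) = T (1 : Weyl P) := T_one_mul_T _
  have h2 : T (1 : Weyl P) * S (E P v) = T (1 : Weyl P) * S (E P v) * T (1 : Weyl P) := by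
    rw [mul_assoc, ← hc.eq, ← mul_assoc, h1]
  have h3 : ∀ x : G, T (1 : Weyl P) * (single x (1 : ℂ) * E P v * single x⁻¹ (1 : ℂ)) *
      T (1 : Weyl P) = ((q : ℂ) ^ wlen (cl x : Weyl P))⁻¹ • ((q : ℂ) ^ wlen (cl x : Weyl P))⁻¹ •
        (T (cl x : Weyl P) * E P v * T (cl x : Weyl P)⁻¹) := by
    intro x
    have e : T (1 : Weyl P) * (single x (1 : ℂ) * E P v * single x⁻¹ (1 : ℂ)) * T (1 : Weyl P) =
        (T (1 : Weyl P) * single x (1 : ℂ) * T (1 : Weyl P)) * E P v *
          (T (1 : Weyl P) * single x⁻¹ (1 : ℂ) * T (1 : Weyl P)) := by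
      conv_lhs => rw [← T_one_mul_E v, ← E_mul_T_one v]
      simp only [mul_assoc]
    rw [e, sandwich hq hq0, sandwich hq hq0, cl_inv,
      show wlen (cl x : Weyl P)⁻¹ = wlen (cl x : Weyl P) from (datum P).inv _]
    simp only [smul_mul_assoc, mul_smul_comm]
  rw [E_Phi hq, h2, S, Finset.mul_sum, Finset.sum_mul, Finset.sum_congr rfl fun x _ => h3 x,
    ← Finset.sum_fiberwise Finset.univ (fun x : G => (cl x : Weyl P)), Finset.smul_sum]
  refine Finset.sum_congr rfl fun w _ => ?_
  rw [Finset.sum_congr rfl (fun x hx => by rw [(Finset.mem_filter.1 hx).2]), Finset.sum_const,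
    ← Nat.cast_smul_eq_nsmul ℂ, card_cl_fiber hq, smul_smul, smul_smul, smul_smul]
  congr 1
  have hb := len_le_bound (datum P) w
  change wlen w ≤ _ at hb
  rw [← Nat.sub_add_cancel hb, pow_add, Nat.add_sub_cancel]
  field_simp [card_B_ne_zero (P := P)]

theorem commute_of_centre [Fintype P.S] {v : Weyl P → ℂ} (hv : v ∈ centre (datum P) (q : ℂ)) (w : Weyl P) :
    Commute (E P v) (T w) := by
  obtain ⟨l, hl, rfl⟩ := HeckeGeneric.exists_reduced (datum P) w
  induction l with
  | nil =>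
    show _ * _ = _ * _
    simp [wprod, T_one_mul_E, E_mul_T_one]
  | cons i l ih =>
    have e1 : wlen (wprod (datum P) (i :: l)) = l.length + 1 := hl
    have e2 : wlen (wprod (datum P) l) = l.length := hl.tail
    rw [wprod_cons] at e1 ⊢
    change wlen (weylGen P i * _) = _ at e1
    show Commute _ (T (weylGen P i * _))
    rw [T_step hq (by omega)]
    refine Commute.mul_right ?_ (ih hl.tail)
    show _ * _ = _ * _
    rw [← E_Rt hq, ← E_L hq, ((mem_centre (datum P)).1 hv i)]

theorem E_Phi_centre [Fintype P.S] (hq0 : q ≠ 0) {v : Weyl P → ℂ} (hv : v ∈ centre (datum P) (q : ℂ)) :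
    E P (Phi (datum P) (q : ℂ) *ᵥ v) =
      ((q : ℂ) ^ bound (datum P) / Nat.card P.B) • (E P v * S (T (1 : Weyl P))) := by
  set v₁ : Weyl P → ℂ := (Nat.card P.B : ℂ)⁻¹ • Pi.single 1 1 with hv₁
  have he : E P v₁ = T (1 : Weyl P) := by rw [hv₁, map_smul, ← T_eq]
  have h := E_Phi_eq hq hq0 v₁
  rw [he] at h
  have h' : E P v * E P (Phi (datum P) (q : ℂ) *ᵥ v₁) =
      E P (Phi (datum P) (q : ℂ) *ᵥ v) := by
    rw [E_Phi hq, E_Phi hq, Finset.mul_sum, he]
    refine Finset.sum_congr rfl fun w _ => ?_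
    rw [mul_smul_comm, T_mul_T_one, ← mul_assoc, (commute_of_centre hq hv w).eq]
  rw [← h', h, mul_smul_comm, ← mul_assoc, E_mul_T_one]

omit hq

theorem eq_zero_of_mul_S {a : MonoidAlgebra ℂ G}
    (hB : ∀ b ∈ P.B, ∀ g, a.coeff (g * b) = a.coeff g) (h : a * S (T (1 : Weyl P)) = 0) : a = 0 := by
  classical
  let A : G → G → ℂ := fun x g => ∑ b : P.B, a.coeff (g * x * b * x⁻¹)
  have hcoeff : ∀ g, ∑ x : G, A x g = 0 := by
    intro g
    have h1 := congrArg (fun z : MonoidAlgebra ℂ G => z.coeff g) h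
    simp only [S, Finset.mul_sum, coeff_finsetSum_apply, coeff_zero, Finsupp.coe_zero,
      Pi.zero_apply] at h1
    have h2 : ∀ x : G, (a * (single x (1 : ℂ) * T (1 : Weyl P) * single x⁻¹ (1 : ℂ))).coeff g =
        (Nat.card P.B : ℂ)⁻¹ * A x g := by
      intro x
      rw [← mul_assoc, ← mul_assoc, coeff_mul_single_apply, mul_one, inv_inv, coeff_mul_T_one]
      congr 1
      refine Finset.sum_congr rfl fun b _ => ?_
      rw [coeff_mul_single_apply, mul_one]
    rw [Finset.sum_congr rfl fun x _ => h2 x, ← Finset.mul_sum] at h1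
    exact (mul_eq_zero.1 h1).resolve_left (inv_ne_zero card_B_ne_zero)
  have hsq : ∀ x : G, (Nat.card P.B : ℂ) * ∑ g, conj (a.coeff g) * A x g =
      ∑ g, (Complex.normSq (A x g) : ℂ) := by
    intro x
    have e : ∀ b' : P.B, ∑ g, conj (a.coeff (g * x * b' * x⁻¹)) * A x g =
        ∑ g, conj (a.coeff g) * A x g := by
      intro b'
      refine Fintype.sum_equiv (Equiv.mulRight (x * b' * x⁻¹)) _ _ fun g => ?_
      simp only [Equiv.coe_mulRight, A]
      congr 1
      · simp [mul_assoc]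
      · refine Fintype.sum_equiv (Equiv.mulLeft b'⁻¹) _ _ fun b => ?_
        simp [mul_assoc]
    simp only [Complex.normSq_eq_conj_mul_self]
    rw [Finset.sum_congr rfl fun g _ => show conj (A x g) * A x g =
      ∑ b' : P.B, conj (a.coeff (g * x * b' * x⁻¹)) * A x g by
        rw [← Finset.sum_mul, ← map_sum]]
    rw [Finset.sum_comm, Finset.sum_congr rfl fun b' _ => e b', Finset.sum_const, Finset.card_univ,
      nsmul_eq_mul, Nat.card_eq_fintype_card]
  have htot : ∑ x : G, ∑ g, Complex.normSq (A x g) = 0 := by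
    have hC : ((∑ x : G, ∑ g, Complex.normSq (A x g) : ℝ) : ℂ) = 0 := by
      push_cast
      rw [Finset.sum_congr rfl fun x _ => (hsq x).symm, ← Finset.mul_sum, Finset.sum_comm,
        Finset.sum_eq_zero fun g _ => by rw [← Finset.mul_sum, hcoeff g, mul_zero], mul_zero]
    exact_mod_cast hC
  refine MonoidAlgebra.ext (Finsupp.ext fun g => ?_)
  rw [Finset.sum_eq_zero_iff_of_nonneg fun x _ => Finset.sum_nonneg fun g _ =>
    Complex.normSq_nonneg _] at htot
  have h1 := htot 1 (Finset.mem_univ 1)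
  rw [Finset.sum_eq_zero_iff_of_nonneg fun g _ => Complex.normSq_nonneg _] at h1
  have h2 := Complex.normSq_eq_zero.1 (h1 g (Finset.mem_univ g))
  have h3 : A 1 g = (Nat.card P.B : ℂ) * a.coeff g := by
    simp only [A, mul_one, inv_one]
    rw [Finset.sum_congr rfl fun b _ => hB _ b.2 g, Finset.sum_const, Finset.card_univ,
      nsmul_eq_mul, Nat.card_eq_fintype_card]
  rw [h3] at h2
  exact (mul_eq_zero.1 h2).resolve_left card_B_ne_zero

include hq

theorem centre_le_range [Fintype P.S] (hq0 : q ≠ 0) :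
    centre (datum P) (q : ℂ) ≤ LinearMap.range (Phi (datum P) (q : ℂ)).mulVecLin := by
  let f : centre (datum P) (q : ℂ) →ₗ[ℂ] centre (datum P) (q : ℂ) :=
    (Phi (datum P) (q : ℂ)).mulVecLin.restrict fun v _ =>
      range_Phi_le (datum P) (q : ℂ) ⟨v, rfl⟩
  have hinj : Function.Injective f := by
    rw [injective_iff_map_eq_zero]
    rintro ⟨v, hv⟩ h
    have h1 : Phi (datum P) (q : ℂ) *ᵥ v = 0 := congrArg Subtype.val h
    have h2 := E_Phi_centre hq hq0 hv
    rw [h1, map_zero, eq_comm, smul_eq_zero] at h2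
    have hc : ((q : ℂ) ^ bound (datum P) / Nat.card P.B) ≠ 0 :=
      div_ne_zero (pow_ne_zero _ (Nat.cast_ne_zero.2 hq0)) card_B_ne_zero
    have h3 := eq_zero_of_mul_S (P := P) (fun b hb g => by simp [cl_right_mul hb]) (h2.resolve_left hc)
    exact Subtype.ext (E_injective (h3.trans (map_zero _).symm))
  intro v hv
  obtain ⟨u, hu⟩ := LinearMap.surjective_of_injective hinj ⟨v, hv⟩
  exact ⟨u, congrArg Subtype.val hu⟩

theorem map_centre [Fintype P.S] (hq0 : q ≠ 0) :
    ∀ a : MonoidAlgebra ℂ G, a ∈ (centre (datum P) (q : ℂ)).map (E P) ↔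
      ∃ z, IsClassElem z ∧ a = T (1 : Weyl P) * z := by
  classical
  intro a
  constructor
  · rintro ⟨v, hv, rfl⟩
    obtain ⟨u, rfl⟩ := centre_le_range hq hq0 hv
    refine ⟨((q : ℂ) ^ bound (datum P) / Nat.card P.B) • S (E P u), ?_, ?_⟩
    · intro h x
      rw [coeff_smul_apply, coeff_smul_apply, isClassElem_S _ h x]
    · rw [Matrix.mulVecLin_apply, E_Phi_eq hq hq0, mul_smul_comm]
  · rintro ⟨z, hz, rfl⟩
    have hc : Commute (T (1 : Weyl P)) z := hz.commute _
    have h1 : T (1 : Weyl P) * (T (1 : Weyl P) * z) = T (1 : Weyl P) * z := by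
      rw [← mul_assoc, T_one_mul_T]
    have h2 : T (1 : Weyl P) * z * T (1 : Weyl P) = T (1 : Weyl P) * z := by
      rw [mul_assoc, ← hc.eq, h1]
    have hL : ∀ b ∈ P.B, ∀ g, (T (1 : Weyl P) * z).coeff (b * g) = (T (1 : Weyl P) * z).coeff g := by
      intro b hb g
      rw [coeff_T_one_mul, coeff_T_one_mul]
      congr 1
      refine Fintype.sum_equiv (Equiv.mulLeft (⟨b, hb⟩ : P.B)⁻¹) _ _ fun x => ?_
      simp [mul_assoc]
    have hR : ∀ b ∈ P.B, ∀ g, (T (1 : Weyl P) * z).coeff (g * b) = (T (1 : Weyl P) * z).coeff g := by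
      intro b hb g
      rw [← h2, coeff_mul_T_one, coeff_mul_T_one]
      congr 1
      refine Fintype.sum_equiv (Equiv.mulLeft (⟨b, hb⟩ : P.B)) _ _ fun x => ?_
      simp [mul_assoc]
    set v : Weyl P → ℂ := fun w => (T (1 : Weyl P) * z).coeff ((w.out : P.N) : G) with hv
    have hEv : E P v = T (1 : Weyl P) * z := by
      refine MonoidAlgebra.ext (Finsupp.ext fun x => ?_)
      obtain ⟨b, hb, c, hc, e⟩ := mem_cell.1 (mem_cell_cl (P := P) x)
      rw [coeff_E, hv]
      conv_rhs => rw [e, hR c hc, hL b hb]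
    refine ⟨v, (mem_centre _).2 fun i => E_injective ?_, hEv⟩
    rw [E_L hq, E_Rt hq, hEv, ← mul_assoc, T_mul_T_one, mul_assoc, ← (hz.commute _).eq,
      ← mul_assoc, T_one_mul_T]

open scoped Classical in
/-- The number of irreducible constituents of the permutation character on `G ⧸ B`. -/
theorem card_constituents (hq0 : q ≠ 0) :
    Nat.card {χ : Cfsg.IrrCharacter G // ∑ b : P.B, (χ : G → ℂ) b ≠ 0} =
      Nat.card (ConjClasses (Weyl P)) := by
  classical
  haveI := Fintype.ofFinite (Cfsg.IrrCharacter G)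
  haveI : Fintype P.S := Fintype.ofFinite _
  rw [← finrank_centre (datum P) (centre_le_range hq hq0)]
  have hfr : Module.finrank ℂ (centre (datum P) (q : ℂ)) =
      Module.finrank ℂ ((centre (datum P) (q : ℂ)).map (E P)) :=
    (LinearEquiv.finrank_eq (Submodule.equivMapOfInjective _ E_injective _))
  let Z : Cfsg.IrrCharacter G → MonoidAlgebra ℂ G := fun χ => ofFun (χ : G → ℂ)
  have hZc : ∀ χ, IsClassElem (Z χ) := fun χ =>
    isClassElem_ofFun fun h x => IsIrrCharacter.isClassFunction χ.2 x h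
  have hZZ : ∀ χ ψ, Z χ * Z ψ =
      (if χ = ψ then (Nat.card G : ℂ) / (ψ : G → ℂ) 1 else 0) • Z ψ := by
    intro χ ψ
    refine MonoidAlgebra.ext (Finsupp.ext fun g => ?_)
    rw [coeff_mul_eq_sum, coeff_smul_apply, smul_eq_mul]
    simp only [Z, coeff_ofFun]
    have h := CfsgLib.BlockLocal.sum_mul_apply_mul ψ (a := fun x => (χ : G → ℂ) x⁻¹)
      (fun x h => by simpa [mul_assoc] using IsIrrCharacter.isClassFunction χ.2 x⁻¹ h) g
    rw [show ∑ x, (χ : G → ℂ) x * (ψ : G → ℂ) (x⁻¹ * g) = ∑ x, (χ : G → ℂ) x⁻¹ * (ψ : G → ℂ) (x * g)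
      from Fintype.sum_equiv (Equiv.inv G) _ _ fun x => by simp, h]
    rw [show ∑ x, (χ : G → ℂ) x⁻¹ * (ψ : G → ℂ) x = ∑ x, (χ : G → ℂ) x * (ψ : G → ℂ) x⁻¹
      from Fintype.sum_equiv (Equiv.inv G) _ _ fun x => by simp,
      CfsgLib.BlockLocal.sum_irr_mul_inv]
    split_ifs <;> simp
  have hval : ∀ χ, (T (1 : Weyl P) * Z χ).coeff 1 =
      (Nat.card P.B : ℂ)⁻¹ * ∑ b : P.B, (χ : G → ℂ) b := by
    intro χ
    rw [coeff_T_one_mul]
    congr 1
    exact Fintype.sum_equiv (Equiv.inv P.B) _ _ fun b => by simp [Z]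
  have hzero : ∀ χ : Cfsg.IrrCharacter G, ∑ b : P.B, (χ : G → ℂ) b = 0 →
      T (1 : Weyl P) * Z χ = 0 := by
    intro χ hχ
    set a := T (1 : Weyl P) * Z χ with ha
    have hconj : ∀ g, a.coeff g⁻¹ = conj (a.coeff g) := by
      intro g
      rw [ha, coeff_T_one_mul, coeff_T_one_mul, map_mul, map_sum, map_inv₀, map_natCast]
      congr 1
      refine Fintype.sum_equiv (Equiv.inv P.B) _ _ fun b => ?_
      simp only [Z, coeff_ofFun, Equiv.inv_apply, Subgroup.coe_inv, inv_inv]
      rw [← IsIrrCharacter.inv χ.2, _root_.mul_inv_rev]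
      have := IsIrrCharacter.isClassFunction χ.2 (g⁻¹ * (b : G)⁻¹) (b : G)⁻¹
      rw [← this]
      congr 1
      group
    have haa : (a * a).coeff 1 = 0 := by
      have hc : Commute (T (1 : Weyl P)) (Z χ) := (hZc χ).commute _
      rw [ha, mul_assoc (T (1 : Weyl P)), ← mul_assoc (Z χ), ← hc.eq, mul_assoc (T (1 : Weyl P)),
        ← mul_assoc, T_one_mul_T, hZZ, if_pos rfl, mul_smul_comm, coeff_smul_apply, hval, hχ,
        mul_zero, smul_zero]
    rw [coeff_mul_eq_sum] at haa
    simp only [mul_one] at haa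
    have hR : ((∑ x, Complex.normSq (a.coeff x) : ℝ) : ℂ) = 0 := by
      push_cast
      rw [← haa]
      exact Finset.sum_congr rfl fun x _ => by rw [hconj, Complex.mul_conj]
    have hR' : ∑ x, Complex.normSq (a.coeff x) = 0 := by exact_mod_cast hR
    rw [Finset.sum_eq_zero_iff_of_nonneg fun x _ => Complex.normSq_nonneg _] at hR'
    exact MonoidAlgebra.ext (Finsupp.ext fun g => by
      simpa using Complex.normSq_eq_zero.1 (hR' g (Finset.mem_univ g)))
  let fam : {χ : Cfsg.IrrCharacter G // ∑ b : P.B, (χ : G → ℂ) b ≠ 0} → MonoidAlgebra ℂ G :=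
    fun χ => T (1 : Weyl P) * Z χ.1
  have hspan : (centre (datum P) (q : ℂ)).map (E P) = Submodule.span ℂ (Set.range fam) := by
    refine le_antisymm (fun a ha => ?_) (Submodule.span_le.2 ?_)
    · obtain ⟨z, hz, rfl⟩ := (map_centre hq hq0 a).1 ha
      have hz' : z = ∑ χ : Cfsg.IrrCharacter G,
          Cfsg.classInner (fun x => z.coeff x) (χ : G → ℂ) • Z χ := by
        refine MonoidAlgebra.ext (Finsupp.ext fun g => ?_)
        rw [coeff_finsetSum_apply]
        conv_lhs => rw [congrFun (eq_sum_classInner (f := fun x => z.coeff x) fun x h => hz h x) g]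
        simp [Z, coeff_smul_apply]
      rw [hz', Finset.mul_sum]
      refine Submodule.sum_mem _ fun χ _ => ?_
      rw [mul_smul_comm]
      refine Submodule.smul_mem _ _ ?_
      by_cases hχ : ∑ b : P.B, (χ : G → ℂ) b = 0
      · rw [hzero χ hχ]; exact Submodule.zero_mem _
      · exact Submodule.subset_span ⟨⟨χ, hχ⟩, rfl⟩
    · rintro _ ⟨χ, rfl⟩
      exact (map_centre hq hq0 _).2 ⟨_, hZc _, rfl⟩
  have hli : LinearIndependent ℂ fam := by
    rw [Fintype.linearIndependent_iff]
    intro c hc ψ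
    have h := congrArg (fun a : MonoidAlgebra ℂ G => (a * Z ψ.1).coeff 1) hc
    simp only [zero_mul, coeff_zero, Finsupp.coe_zero, Pi.zero_apply, Finset.sum_mul,
      coeff_finsetSum_apply] at h
    rw [Finset.sum_eq_single ψ (fun χ _ hne => ?_) (by simp)] at h
    · rw [smul_mul_assoc, mul_assoc, hZZ, if_pos rfl, mul_smul_comm, coeff_smul_apply,
        coeff_smul_apply, hval, smul_eq_mul, smul_eq_mul] at h
      simp only [mul_eq_zero, inv_eq_zero, card_B_ne_zero, ψ.2, or_false, div_eq_zero_iff,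
        apply_one_ne_zero_of_isIrr ψ.1.2, Nat.cast_eq_zero, Nat.card_pos.ne'] at h
      exact h
    · simp only [fam]
      rw [smul_mul_assoc, mul_assoc, hZZ, if_neg (fun e => hne (Subtype.ext e))]
      simp
  rw [hfr, hspan, finrank_span_eq_card hli, Nat.card_eq_fintype_card]

omit hq

theorem sum_eq_zero_iff (χ : Cfsg.IrrCharacter G) (B : Subgroup G) [Fintype B] :
    (∃ φ : G → ℂ, Cfsg.IsCharacter G φ ∧
        Cfsg.fixedPointCharacter B = (χ : G → ℂ) + φ) ↔ ∑ b : B, (χ : G → ℂ) b ≠ 0 := by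
  classical
  haveI := Fintype.ofFinite (Cfsg.IrrCharacter G)
  have hfp : Cfsg.classInner (Cfsg.fixedPointCharacter B) (χ : G → ℂ) =
      conj ((Nat.card B : ℂ)⁻¹ * ∑ b : B, (χ : G → ℂ) b) := by
    rw [SteinbergChar.fixedPointCharacter_eq,
      CfsgLib.Frobenius.classInner_indFun _ _ _ (IsIrrCharacter.isClassFunction χ.2)]
    simp [Cfsg.classInner, map_sum]
  have hfpc : Cfsg.IsCharacter G (Cfsg.fixedPointCharacter B) := isCharacter_card_fixedBy (G ⧸ B)
  obtain ⟨m, hm⟩ := IsCharacter.exists_sum hfpc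
  have hmχ : Cfsg.classInner (Cfsg.fixedPointCharacter B) (χ : G → ℂ) = (m χ : ℂ) := by
    rw [hm, classInner_sum_irr]
  have hB0 : (Nat.card B : ℂ) ≠ 0 := Nat.cast_ne_zero.2 Nat.card_pos.ne'
  constructor
  · rintro ⟨φ, hφ, e⟩ h0
    rw [h0, mul_zero, map_zero, e, classInner_add_left, classInner_irrCharacter, if_pos rfl] at hfp
    obtain ⟨k, hk⟩ := IsCharacter.exists_classInner_eq_nat hφ χ
    rw [hk, ← Nat.cast_one, ← Nat.cast_add, Nat.cast_eq_zero] at hfp
    omega
  · intro h
    have hm0 : m χ ≠ 0 := by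
      intro h0
      rw [hmχ, h0, Nat.cast_zero, eq_comm, map_eq_zero, mul_eq_zero, inv_eq_zero] at hfp
      exact h (hfp.resolve_left hB0)
    refine ⟨∑ ψ, ((m ψ - if ψ = χ then 1 else 0 : ℕ) : ℂ) • (ψ : G → ℂ),
      isCharacter_iff_exists_sum.2 ⟨_, rfl⟩, ?_⟩
    rw [hm, show (χ : G → ℂ) = ∑ ψ : Cfsg.IrrCharacter G,
      (if ψ = χ then (1 : ℂ) else 0) • (ψ : G → ℂ) by simp [ite_smul],
      ← Finset.sum_add_distrib]
    refine Finset.sum_congr rfl fun ψ _ => ?_
    rw [← add_smul]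
    congr 1
    split_ifs with he
    · subst he; rw [Nat.cast_sub (by omega)]; ring
    · simp

end CfsgLib.InvCentralizers.HeckeCentre
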