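import Cfsg.Agent.Lib.InvCentralizers.HeckeWeyl
import Cfsg.Agent.Lib.InvCentralizers.ChevalleySteinberg
import Cfsg.Agent.Lib.Twisted.CoxeterOrder
import Cfsg.Agent.Lib.Chevalley.GraphSimplyLaced

/-!
The Weyl group of the (B,N)-pair of a Chevalley group is the Coxeter group, and every cell of a
fundamental reflection consists of `q` cosets of the Borel subgroup.
-/

set_option autoImplicit false
set_option linter.unusedSectionVars false
set_option linter.style.haveILetI false

namespace CfsgLib.InvCentralizers.HeckeChevalley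

open Cfsg.Lie CfsgLib.Chevalley CfsgLib.BNPair CfsgLib.InvCentralizers.HeckeWeyl
open CfsgLib.InvCentralizers.ChevalleySteinberg

variable {D : ChevalleyDatum} {A : Aux} {F : Type*} [Field F]

instance bnNormal {G : Type*} [Group G] (P : Cfsg.BNPair G) :
    ((P.B ⊓ P.N).subgroupOf P.N).Normal :=
  ⟨fun n hn g => Subgroup.mem_subgroupOf.2
    ⟨P.conj_mem g g.2 n (Subgroup.mem_subgroupOf.1 hn), (g * n * g⁻¹).2⟩⟩

theorem cartan_eq_sum (h : Full D A) (k : Fin D.rank) (s : Fin D.nroots) :
    D.cartan k s = ∑ j : Fin D.rank, crd A j s * D.cartan k (D.simple j) := by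
  have hl := (acts_nG_simple (F := ℚ) h k one_ne_zero).lin k k.isLt s
  simp only [rfPerm_apply, h.crd_rf k k.isLt, if_true, mul_one] at hl
  have he : ∀ j : Fin D.rank, crd A k (smp h.cert j : ℕ) = if (k : ℕ) = j then 1 else 0 := fun j =>
    crd_simple h.cert k.isLt j.isLt
  simp only [he, mul_sub, Finset.sum_sub_distrib, mul_ite, mul_one, mul_zero, Fin.val_inj,
    Finset.sum_ite_eq, Finset.mem_univ, if_true] at hl
  have := sub_right_inj.1 hl
  exact this

/-- The pairing of a coefficient vector with a root. -/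
noncomputable def pr (D : ChevalleyDatum) (A : Aux) (v : Fin D.rank → ℤ) (s : Fin D.nroots) : ℤ :=
  ∑ j : Fin D.rank, v j * crd A j s

theorem pr_smp (h : Full D A) (v : Fin D.rank → ℤ) (i : Fin D.rank) :
    pr D A v (smp h.cert i) = v i := by
  have he : ∀ j : Fin D.rank, crd A j (smp h.cert i : ℕ) = if (j : ℕ) = i then 1 else 0 := fun j =>
    crd_simple h.cert j.isLt i.isLt
  simp [pr, he, Fin.val_inj]

theorem pr_single (v : Fin D.rank) (s : Fin D.nroots) :
    pr D A (Pi.single v 1) s = crd A v s := by
  simp [pr, Pi.single_apply]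

variable {M : CoxeterMatrix (Fin D.rank)} {cart : Fin D.rank → Fin D.rank → ℤ}

open CfsgLib.Twisted.Cox in
theorem pr_refl (h : Full D A) (hcart : ∀ i j : Fin D.rank, cart j i = D.cartan i (D.simple j))
    (k : Fin D.rank) (v : Fin D.rank → ℤ) (s : Fin D.nroots) :
    pr D A (refl cart k v) s = pr D A v (rf h.cert k s) := by
  have e : ∀ j : Fin D.rank, crd A j (rf h.cert k s : ℕ) =
      crd A j s - D.cartan k s * (if k = j then 1 else 0) := fun j => by
    rw [h.crd_rf k j.isLt]; simp [Fin.val_inj]
  simp only [pr, e, CfsgLib.Twisted.Cox.refl, LinearMap.coe_mk, AddHom.coe_mk, sub_mul, mul_sub,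
    Finset.sum_sub_distrib, mul_ite, mul_one, mul_zero, Finset.sum_ite_eq, Finset.mem_univ, if_true]
  rw [cartan_eq_sum h k s, Finset.mul_sum]
  congr 1
  exact Finset.sum_congr rfl fun j _ => by rw [hcart k j]; ring

/-- A word in the Coxeter group. -/
noncomputable def wordM (M : CoxeterMatrix (Fin D.rank)) (l : List (Fin D.rank)) : M.Group :=
  (l.map M.simple).prod

theorem wordM_reverse (l : List (Fin D.rank)) : wordM M l.reverse = (wordM M l)⁻¹ := by
  have := M.toCoxeterSystem.wordProd_reverse l
  simpa [CoxeterSystem.wordProd, wordM] using this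

variable {Ls : List CfsgLib.Twisted.Cox.Level}

open CfsgLib.Twisted.Cox in
theorem pr_rep (h : Full D A) (hcart : ∀ i j : Fin D.rank, cart j i = D.cartan i (D.simple j))
    (hrel : checkRel M cart = true) (l : List (Fin D.rank)) (v : Fin D.rank → ℤ)
    (s : Fin D.nroots) :
    pr D A (rep hrel (wordM M l) v) s = pr D A v (wPerm h.cert l.reverse s) := by
  induction l generalizing s with
  | nil => simp [wordM]
  | cons k l ih =>
    rw [show wordM M (k :: l) = M.simple k * wordM M l by simp [wordM], map_mul,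
      Module.End.mul_apply, rep_simple, pr_refl h hcart, ih, List.reverse_cons, wPerm_append,
      wPerm_cons, wPerm_nil, mul_one, Equiv.Perm.mul_apply, rfPerm_apply]

open CfsgLib.Twisted.Cox in
theorem wordM_eq_one_iff (h : Full D A)
    (hcart : ∀ i j : Fin D.rank, cart j i = D.cartan i (D.simple j))
    (T : Tower M cart Ls) (l : List (Fin D.rank)) : wordM M l = 1 ↔ wPerm h.cert l = 1 := by
  constructor
  · intro hw
    refine Equiv.ext fun s => h.eq_of_crd fun j hj => ?_
    have := pr_rep h hcart T.rel l.reverse (Pi.single (⟨j, hj⟩ : Fin D.rank) 1) s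
    rw [wordM_reverse, hw, inv_one, map_one, Module.End.one_apply, List.reverse_reverse,
      pr_single, pr_single] at this
    exact this.symm
  · intro hw
    suffices wordM M l.reverse = 1 by rwa [wordM_reverse, inv_eq_one] at this
    refine T.spec.2 ?_
    rw [map_one]
    refine LinearMap.ext fun v => funext fun i => ?_
    rw [← pr_smp h (rep T.rel (wordM M l.reverse) v) i, pr_rep h hcart, List.reverse_reverse, hw,
      Equiv.Perm.one_apply, pr_smp h, Module.End.one_apply]

/-- A fundamental generator of the Weyl group. -/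
noncomputable def gen (h : Full D A) (F : Type*) [Field F] (i : Fin D.rank) : Weyl (bnPair h F) :=
  weylGen (bnPair h F) ⟨sRep h F i, (mem_bnPair_S h).2 ⟨i, i.isLt, rfl⟩⟩

theorem prod_gen_eq_one_iff (h : Full D A) (l : List (Fin D.rank)) :
    (l.map (gen h F)).prod = 1 ↔ wPerm h.cert l = 1 := by
  let l' : List (bnPair h F).S :=
    l.map fun i : Fin D.rank => ⟨sRep h F i, (mem_bnPair_S h).2 ⟨i, i.isLt, rfl⟩⟩
  have e : (l.map (gen h F)).prod = weylProd (bnPair h F) l' := by
    simp only [weylProd, l', List.map_map]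
    rfl
  have hval : (((gval l').prod : D.group F) : GL D.Idx F) = nW h.cert F l := by
    rw [SubmonoidClass.coe_list_prod, gval, List.map_map, List.map_map]
    rfl
  rw [e, weylProd_mk, QuotientGroup.eq_one_iff, Subgroup.mem_subgroupOf]
  have key : (gval l').prod ∈ (bnPair h F).B ⊓ (bnPair h F).N ↔
      nW h.cert F l ∈ D.diagonalSubgroup F := by
    rw [← hval, ← borel_inf_monomial h]
    rfl
  rw [key]
  constructor
  · intro hd
    rw [diagonalSubgroup_eq_range h] at hd
    obtain ⟨c, hc⟩ := hd
    obtain ⟨η, hη⟩ := acts_nW (F := F) h l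
    rw [← hc] at hη
    exact hη.perm_eq (acts_torus h.cert c)
  · intro hp
    exact (nW_mem_diagonal h l fun i => by rw [hp]; exact h.simple_pos i.isLt).1

/-- The Weyl group is the Coxeter group. -/
theorem card_conjClasses_weyl (h : Full D A)
    (hcart : ∀ i j : Fin D.rank, cart j i = D.cartan i (D.simple j))
    (T : CfsgLib.Twisted.Cox.Tower M cart Ls) :
    Nat.card (ConjClasses (Weyl (bnPair h F))) = Nat.card (ConjClasses M.Group) := by
  have key : ∀ l : List (Fin D.rank), (l.map (gen h F)).prod = 1 ↔ wordM M l = 1 := fun l =>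
    (prod_gen_eq_one_iff h l).trans (wordM_eq_one_iff h hcart T l).symm
  have hlift : M.IsLiftable (gen h F) := by
    intro i j
    have e1 : wordM M (List.replicate (M.M i j) [i, j]).flatten = 1 := by
      simp only [wordM, List.map_flatten, List.map_replicate, List.prod_flatten, List.map_cons,
        List.map_nil, List.prod_replicate, List.prod_cons, List.prod_nil, mul_one]
      exact M.toCoxeterSystem.simple_mul_simple_pow i j
    have e2 := (key _).2 e1
    simpa only [List.map_flatten, List.map_replicate, List.prod_flatten, List.map_cons,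
      List.map_nil, List.prod_replicate, List.prod_cons, List.prod_nil, mul_one] using e2
  let φ := M.toCoxeterSystem.lift ⟨gen h F, hlift⟩
  have hφ : ∀ l, φ (wordM M l) = (l.map (gen h F)).prod := by
    intro l
    rw [wordM, map_list_prod, List.map_map]
    congr 1
    refine List.map_congr_left fun i _ => ?_
    have := M.toCoxeterSystem.lift_apply_simple hlift i
    rwa [CoxeterMatrix.toCoxeterSystem_simple] at this
  have hbij : Function.Bijective φ := by
    constructor
    · rw [injective_iff_map_eq_one]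
      intro c hc
      obtain ⟨l, rfl⟩ := M.toCoxeterSystem.wordProd_surjective c
      have e : M.toCoxeterSystem.wordProd l = wordM M l := by
        simp [CoxeterSystem.wordProd, wordM]
      rw [e] at hc ⊢
      rw [hφ] at hc
      exact (key l).1 hc
    · intro w
      obtain ⟨l, -, rfl⟩ := exists_wReduced w
      induction l with
      | nil => exact ⟨1, map_one φ⟩
      | cons s l ih =>
        obtain ⟨c, hc⟩ := ih
        obtain ⟨i, hi, e⟩ := (mem_bnPair_S h).1 s.2
        refine ⟨wordM M [⟨i, hi⟩] * c, ?_⟩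
        rw [map_mul, hφ, hc, weylProd_cons]
        simp only [List.map_cons, List.map_nil, List.prod_cons, List.prod_nil, mul_one, gen]
        rw [show (⟨sRep h F i, (mem_bnPair_S h).2 ⟨i, hi, rfl⟩⟩ : (bnPair h F).S) = s from
          Subtype.ext e.symm]
  let e : M.Group ≃* Weyl (bnPair h F) := MulEquiv.ofBijective φ hbij
  refine (Nat.card_eq_of_bijective (ConjClasses.map e.toMonoidHom) ⟨?_, ?_⟩).symm
  · intro a b hab
    obtain ⟨a, rfl⟩ := ConjClasses.mk_surjective a
    obtain ⟨b, rfl⟩ := ConjClasses.mk_surjective b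
    obtain ⟨c, hc⟩ := isConj_iff.1 (ConjClasses.mk_eq_mk_iff_isConj.1 hab)
    refine ConjClasses.mk_eq_mk_iff_isConj.2 (isConj_iff.2 ⟨e.symm c, e.injective ?_⟩)
    simpa using hc
  · intro b
    obtain ⟨b, rfl⟩ := ConjClasses.mk_surjective b
    exact ⟨ConjClasses.mk (e.symm b), congrArg ConjClasses.mk (e.apply_symm_apply b)⟩

variable [Fintype F]

/-- The cell of a fundamental reflection consists of `q` cosets of the Borel subgroup. -/
theorem card_cell (h : Full D A) {s : D.group F} (hs : s ∈ (bnPair h F).S) :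
    Nat.card (cell (bnPair h F) s) = Fintype.card F * Nat.card (bnPair h F).B := by
  obtain ⟨i, hi, rfl⟩ := (mem_bnPair_S h).1 hs
  set P := bnPair h F
  let k : Fin D.rank := ⟨i, hi⟩
  let x : F → D.group F := fun t => ⟨xG h.cert (D.simple i) t, xG_mem_group h.cert _ _⟩
  have hxU : ∀ t, xG h.cert (D.simple i) t ∈ D.posUnipotent F := fun t => by
    rw [posUnipotent_eq]; exact xG_mem_rootsU h.cert (h.simple_pos hi) t
  rw [← Nat.card_eq_fintype_card, ← Nat.card_prod]
  symm
  refine Nat.card_eq_of_bijective (fun z => ⟨x z.1 * sRep h F i * (z.2 : D.group F),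
    right_mul_mem_cell z.2.2 (left_mul_mem_cell (show x z.1 ∈ P.B from
      Subgroup.mem_sup_left (hxU z.1)) (self_mem_cell _))⟩) ⟨?_, ?_⟩
  · rintro ⟨t, b⟩ ⟨t', b'⟩ e
    have e' : xG h.cert (D.simple i) t * nG h.cert (D.simple i) (1 : F) * ((b : D.group F) : GL D.Idx F)
        = xG h.cert (D.simple i) t' * nG h.cert (D.simple i) 1 * ((b' : D.group F) : GL D.Idx F) :=
      congrArg (fun z : cell P (sRep h F i) => ((z : D.group F) : GL D.Idx F)) e
    have hbb : (nG h.cert (D.simple i) (1 : F))⁻¹ * xG h.cert (D.simple i) (-t' + t) *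
        nG h.cert (D.simple i) 1 = ((b' : D.group F) : GL D.Idx F) * ((b : D.group F) : GL D.Idx F)⁻¹ := by
      rw [← xG_mul, ← xG_inv]
      have := congrArg (fun z => (nG h.cert (D.simple i) (1 : F))⁻¹ *
        (xG h.cert (D.simple i) t')⁻¹ * z * ((b : D.group F) : GL D.Idx F)⁻¹) e'
      simpa [mul_assoc] using this
    have hneg : (nG h.cert (D.simple i) (1 : F))⁻¹ * xG h.cert (D.simple i) (-t' + t) *
        nG h.cert (D.simple i) 1 ∈ D.negUnipotent F := by
      have h1 := (acts_nG_simple (F := F) h k (c := -1) (neg_ne_zero.2 one_ne_zero)).conj_rootsU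
        (S := {D.simple i}) (T := {r | D.IsNegRoot r}) (fun r hr => by
          obtain rfl : r = smp h.cert k := Fin.ext hr
          show D.IsNegRoot _
          rw [rfPerm_apply, rf_smp]
          exact h.neg_isNeg (h.simple_pos hi))
        _ (xG_mem_rootsU h.cert (Set.mem_singleton _) (-t' + t))
      rw [show nG h.cert (D.simple k) (-1 : F) = (nG h.cert (D.simple i) (1 : F))⁻¹ from
        (nG_inv h.cert _ _).symm, inv_inv] at h1
      exact h1
    have h2 : (nG h.cert (D.simple i) (1 : F))⁻¹ * xG h.cert (D.simple i) (-t' + t) *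
        nG h.cert (D.simple i) 1 ∈ D.borelSubgroup F ⊓ D.negUnipotent F :=
      ⟨hbb ▸ Subgroup.mul_mem _ b'.2 (Subgroup.inv_mem _ b.2), hneg⟩
    rw [borel_inf_negUnipotent h, Subgroup.mem_bot] at h2
    have ht : xG h.cert (D.simple i) (-t' + t) = 1 := by
      rw [mul_assoc, inv_mul_eq_one, eq_comm, mul_eq_right] at h2
      exact h2
    obtain rfl : t = t' := by
      have := xG_injective h.cert (h.cert.wf.simple_lt i hi) (ht.trans (xG_zero h.cert _).symm)
      linear_combination this
    obtain rfl : b = b' := Subtype.ext (Subtype.ext (mul_left_cancel e'))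
    rfl
  · rintro ⟨g, hg⟩
    obtain ⟨a, ha, c, hc, rfl⟩ := mem_cell.1 hg
    obtain ⟨u, hu, d, hd, e⟩ := (mem_borel_iff h).1 (show (a : GL D.Idx F) ∈ D.borelSubgroup F from ha)
    obtain ⟨t, v, hv, rfl⟩ := exists_split_simple h hi hu
    have h1 : (nG h.cert (D.simple i) (1 : F))⁻¹ * v * nG h.cert (D.simple i) 1 ∈
        D.borelSubgroup F := by
      have h' := (acts_nG_simple (F := F) h k (c := -1) (neg_ne_zero.2 one_ne_zero)).conj_rootsU
        (S := posButSimple D i) (T := {r | D.IsPosRoot r}) (fun r hr => by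
          show D.IsPosRoot _
          rw [rfPerm_apply]
          exact h.rf_ne_simple_pos k hr.1 fun e => hr.2 (congrArg Fin.val e)) _ hv
      rw [show nG h.cert (D.simple k) (-1 : F) = (nG h.cert (D.simple i) (1 : F))⁻¹ from
        (nG_inv h.cert _ _).symm, inv_inv] at h'
      exact Subgroup.mem_sup_left (by rw [posUnipotent_eq]; exact h')
    have h2 : (nG h.cert (D.simple i) (1 : F))⁻¹ * d * nG h.cert (D.simple i) 1 ∈
        D.borelSubgroup F := by
      have h' := monomial_conj_diagonal h (Subgroup.inv_mem _ (nG_simple_mem_monomial h k)) hd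
      rw [inv_inv] at h'
      exact Subgroup.mem_sup_right h'
    have hb : ((x t * sRep h F i)⁻¹ * (a * sRep h F i * c)) ∈ P.B := by
      show ((((x t * sRep h F i)⁻¹ * (a * sRep h F i * c)) : D.group F) : GL D.Idx F) ∈
        D.borelSubgroup F
      have e2 : ((((x t * sRep h F i)⁻¹ * (a * sRep h F i * c)) : D.group F) : GL D.Idx F) =
          ((nG h.cert (D.simple i) (1 : F))⁻¹ * v * nG h.cert (D.simple i) 1) *
          ((nG h.cert (D.simple i) (1 : F))⁻¹ * d * nG h.cert (D.simple i) 1) * (c : GL D.Idx F) := by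
        simp only [Subgroup.coe_mul, Subgroup.coe_inv, x, sRep, e]
        group
      rw [e2]
      exact Subgroup.mul_mem _ (Subgroup.mul_mem _ h1 h2) hc
    exact ⟨(t, ⟨_, hb⟩), Subtype.ext (mul_inv_cancel_left _ _)⟩

end CfsgLib.InvCentralizers.HeckeChevalley
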