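import Mathlib

/-!
Hecke algebras of finite Coxeter groups with a parameter, as operators on functions on the group:
the dimension of the centre is the number of conjugacy classes at every semisimple parameter.
-/

set_option autoImplicit false
set_option linter.unusedSectionVars false

namespace CfsgLib.InvCentralizers.HeckeGeneric

open Matrix Polynomial

/-- The combinatorial data of a Coxeter group needed for its Hecke algebra. -/
structure Datum (W : Type*) [Group W] (ι : Type*) where
  /-- the generators -/
  s : ι → W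
  /-- the length -/
  len : W → ℕ
  sq : ∀ i, s i * s i = 1
  len_one : len 1 = 0
  step : ∀ i w, len (s i * w) = len w + 1 ∨ len (s i * w) + 1 = len w
  inv : ∀ w, len w⁻¹ = len w
  descent : ∀ w, w ≠ 1 → ∃ i, len (s i * w) < len w
  key : ∀ i j w, len w < len (s i * w) → len w < len (w * s j) →
    len (s i * w * s j) = len w → s i * w = w * s j

variable {W : Type*} [Group W] [Fintype W] [DecidableEq W] {ι : Type*}
variable (X : Datum W ι) {R : Type*} [CommRing R]

theorem Datum.s_inv (i : ι) : (X.s i)⁻¹ = X.s i := inv_eq_of_mul_eq_one_right (X.sq i)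

theorem Datum.s_mul_s_mul (i : ι) (w : W) : X.s i * (X.s i * w) = w := by
  rw [← mul_assoc, X.sq, one_mul]

theorem Datum.mul_s_mul_s (i : ι) (w : W) : w * X.s i * X.s i = w := by
  rw [mul_assoc, X.sq, mul_one]

theorem Datum.stepR (i : ι) (w : W) :
    X.len (w * X.s i) = X.len w + 1 ∨ X.len (w * X.s i) + 1 = X.len w := by
  have := X.step i w⁻¹
  rwa [show X.s i * w⁻¹ = (w * X.s i)⁻¹ by rw [_root_.mul_inv_rev, X.s_inv], X.inv, X.inv] at this

/-- Left multiplication by a generator. -/
def L (t : R) (i : ι) : Matrix W W R := Matrix.of fun x w =>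
  if X.len w < X.len (X.s i * w) then (if x = X.s i * w then 1 else 0)
  else (if x = X.s i * w then t else 0) + (if x = w then t - 1 else 0)

/-- Right multiplication by a generator. -/
def Rt (t : R) (i : ι) : Matrix W W R := Matrix.of fun x w =>
  if X.len w < X.len (w * X.s i) then (if x = w * X.s i then 1 else 0)
  else (if x = w * X.s i then t else 0) + (if x = w then t - 1 else 0)

theorem mul_L (A : Matrix W W R) (t : R) (i : ι) (x w : W) :
    (A * L X t i) x w = if X.len w < X.len (X.s i * w) then A x (X.s i * w)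
      else t * A x (X.s i * w) + (t - 1) * A x w := by
  simp only [Matrix.mul_apply, L, Matrix.of_apply]
  split_ifs with h <;>
    simp [mul_add, Finset.sum_add_distrib, mul_ite, mul_comm t, mul_comm (t - 1)]

theorem mul_Rt (A : Matrix W W R) (t : R) (i : ι) (x w : W) :
    (A * Rt X t i) x w = if X.len w < X.len (w * X.s i) then A x (w * X.s i)
      else t * A x (w * X.s i) + (t - 1) * A x w := by
  simp only [Matrix.mul_apply, Rt, Matrix.of_apply]
  split_ifs with h <;>
    simp [mul_add, Finset.sum_add_distrib, mul_ite, mul_comm t, mul_comm (t - 1)]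

theorem L_sq (t : R) (i : ι) : L X t i * L X t i = (t - 1) • L X t i + t • 1 := by
  ext x w
  rw [mul_L]
  have hs := X.step i w
  have e := X.s_mul_s_mul i w
  simp only [L, Matrix.of_apply, Matrix.add_apply, Matrix.smul_apply, Matrix.one_apply, e,
    smul_eq_mul]
  split_ifs <;> first
    | (exfalso; omega)
    | ring

theorem Rt_sq (t : R) (i : ι) : Rt X t i * Rt X t i = (t - 1) • Rt X t i + t • 1 := by
  ext x w
  rw [mul_Rt]
  have hs := X.stepR i w
  have e := X.mul_s_mul_s i w
  simp only [Rt, Matrix.of_apply, Matrix.add_apply, Matrix.smul_apply, Matrix.one_apply, e,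
    smul_eq_mul]
  split_ifs <;> first
    | (exfalso; omega)
    | ring

/-- Left and right multiplications commute. -/
theorem L_Rt_comm (t : R) (i j : ι) : L X t i * Rt X t j = Rt X t j * L X t i := by
  ext x w
  rw [mul_Rt, mul_L]
  have e1 : X.s i * (w * X.s j) = X.s i * w * X.s j := (mul_assoc _ _ _).symm
  simp only [L, Rt, Matrix.of_apply, e1]
  have h1 := X.step i w
  have h2 := X.stepR j w
  have h3 := X.step i (w * X.s j)
  have h4 := X.stepR j (X.s i * w)
  rw [e1] at h3
  by_cases huu : X.len w < X.len (X.s i * w) ∧ X.len w < X.len (w * X.s j) ∧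
      X.len (X.s i * w * X.s j) = X.len w
  · have e := X.key i j w huu.1 huu.2.1 huu.2.2
    have e' : X.s i * w * X.s j = w := by rw [e, X.mul_s_mul_s]
    simp only [e]
  by_cases hdd : X.len (X.s i * w) < X.len w ∧ X.len (w * X.s j) < X.len w ∧
      X.len (X.s i * w * X.s j) = X.len w
  · -- the same coincidence, seen from `w * s j`
    have h := X.key i j (w * X.s j) (by rw [e1]; omega) (by rw [X.mul_s_mul_s]; omega)
      (by rw [e1, X.mul_s_mul_s]; omega)
    rw [e1, X.mul_s_mul_s] at h
    have e : X.s i * w = w * X.s j := by conv_rhs => rw [← h, X.mul_s_mul_s]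
    have e' : X.s i * w * X.s j = w := h
    simp only [e]
  split_ifs <;> first
    | (exfalso; omega)
    | ring

/-! ### Words -/

/-- The product of a word of generators. -/
def wprod (l : List ι) : W := (l.map X.s).prod

/-- A word is reduced. -/
def Reduced (l : List ι) : Prop := X.len (wprod X l) = l.length

/-- The left operator of a word. -/
def Lp (t : R) (l : List ι) : Matrix W W R := (l.map (L X t)).prod

/-- The right operator of a word. -/
def Rp (t : R) (l : List ι) : Matrix W W R := (l.map (Rt X t)).prod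

theorem wprod_cons (i : ι) (l : List ι) : wprod X (i :: l) = X.s i * wprod X l := by simp [wprod]

theorem len_wprod_le (l : List ι) : X.len (wprod X l) ≤ l.length := by
  induction l with
  | nil => simp [wprod, X.len_one]
  | cons i l ih =>
    rw [wprod_cons, List.length_cons]
    have := X.step i (wprod X l)
    omega

theorem Reduced.tail {i : ι} {l : List ι} (h : Reduced X (i :: l)) : Reduced X l := by
  have h' : X.len (X.s i * wprod X l) = l.length + 1 := by rw [← wprod_cons]; simpa [Reduced] using h
  have := X.step i (wprod X l)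
  have := len_wprod_le X l
  unfold Reduced
  omega

theorem exists_reduced (w : W) : ∃ l, Reduced X l ∧ wprod X l = w := by
  induction hk : X.len w using Nat.strong_induction_on generalizing w with
  | _ k ih =>
    by_cases hw : w = 1
    · subst hw; exact ⟨[], by simp [Reduced, wprod, X.len_one], by simp [wprod]⟩
    obtain ⟨i, hi⟩ := X.descent w hw
    obtain ⟨l, hl, e⟩ := ih _ (hk ▸ hi) (X.s i * w) rfl
    have e' : wprod X (i :: l) = w := by rw [wprod_cons, e, X.s_mul_s_mul]
    refine ⟨i :: l, ?_, e'⟩
    unfold Reduced at hl ⊢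
    rw [e'] ; rw [e] at hl
    have := X.step i w
    simp only [List.length_cons]
    omega

theorem Lp_col {t : R} {l : List ι} (h : Reduced X l) (x : W) :
    Lp X t l x 1 = if x = wprod X l then 1 else 0 := by
  induction l generalizing x with
  | nil => simp [Lp, wprod, Matrix.one_apply]
  | cons i l ih =>
    have ht := h.tail
    simp only [Lp, List.map_cons, List.prod_cons, Matrix.mul_apply]
    rw [Finset.sum_eq_single (wprod X l) (fun b _ hb => by
      rw [show (l.map (L X t)).prod b 1 = _ from ih ht b, if_neg hb, mul_zero]) (by simp)]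
    rw [show (l.map (L X t)).prod (wprod X l) 1 = _ from ih ht _, if_pos rfl, mul_one]
    have hlt : X.len (wprod X l) < X.len (X.s i * wprod X l) := by
      rw [← wprod_cons, show X.len (wprod X (i :: l)) = _ from h, show X.len (wprod X l) = _ from ht]
      simp
    simp [L, hlt, wprod_cons]

theorem Rp_col {t : R} {l : List ι} (h : Reduced X l) (x : W) :
    Rp X t l x 1 = if x = (wprod X l)⁻¹ then 1 else 0 := by
  induction l generalizing x with
  | nil => simp [Rp, wprod, Matrix.one_apply]
  | cons i l ih =>
    have ht := h.tail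
    simp only [Rp, List.map_cons, List.prod_cons, Matrix.mul_apply]
    rw [Finset.sum_eq_single (wprod X l)⁻¹ (fun b _ hb => by
      rw [show (l.map (Rt X t)).prod b 1 = _ from ih ht b, if_neg hb, mul_zero]) (by simp)]
    rw [show (l.map (Rt X t)).prod (wprod X l)⁻¹ 1 = _ from ih ht _, if_pos rfl, mul_one]
    have e : (wprod X l)⁻¹ * X.s i = (wprod X (i :: l))⁻¹ := by
      rw [wprod_cons, _root_.mul_inv_rev, X.s_inv]
    have hlt : X.len (wprod X l)⁻¹ < X.len ((wprod X l)⁻¹ * X.s i) := by
      rw [e, X.inv, X.inv, show X.len (wprod X (i :: l)) = _ from h,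
        show X.len (wprod X l) = _ from ht]
      simp
    simp only [Rt, Matrix.of_apply, if_pos hlt]
    simp only [e]

theorem commute_Lp_Rp (t : R) (l l' : List ι) : Commute (Lp X t l) (Rp X t l') := by
  refine Commute.list_prod_left _ _ fun a ha => Commute.list_prod_right _ _ fun b hb => ?_
  obtain ⟨i, -, rfl⟩ := List.mem_map.1 ha
  obtain ⟨j, -, rfl⟩ := List.mem_map.1 hb
  exact L_Rt_comm X t i j

theorem Lp_eq {t : R} {l l' : List ι} (h : Reduced X l) (h' : Reduced X l')
    (e : wprod X l = wprod X l') : Lp X t l = Lp X t l' := by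
  ext x v
  obtain ⟨m, hm, hmv⟩ := exists_reduced X v⁻¹
  have hcol : ∀ l₀ : List ι, Reduced X l₀ → Lp X t l₀ x v = Rp X t m x (wprod X l₀) := by
    intro l₀ h₀
    have hc := congrFun (congrFun (commute_Lp_Rp X t l₀ m).eq x) 1
    simp only [Matrix.mul_apply] at hc
    rw [Finset.sum_eq_single v (fun b _ hb => by
        rw [Rp_col X hm, hmv, inv_inv, if_neg hb, mul_zero]) (by simp),
      Finset.sum_eq_single (wprod X l₀) (fun b _ hb => by
        rw [Lp_col X h₀, if_neg hb, mul_zero]) (by simp), Rp_col X hm, hmv, inv_inv, if_pos rfl,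
      Lp_col X h₀, if_pos rfl, mul_one, mul_one] at hc
    exact hc
  rw [hcol l h, hcol l' h', e]

theorem Rp_eq {t : R} {l l' : List ι} (h : Reduced X l) (h' : Reduced X l')
    (e : wprod X l = wprod X l') : Rp X t l = Rp X t l' := by
  ext x v
  obtain ⟨m, hm, hmv⟩ := exists_reduced X v
  have hcol : ∀ l₀ : List ι, Reduced X l₀ → Rp X t l₀ x v = Lp X t m x (wprod X l₀)⁻¹ := by
    intro l₀ h₀
    have hc := congrFun (congrFun (commute_Lp_Rp X t m l₀).eq x) 1
    simp only [Matrix.mul_apply] at hc
    rw [Finset.sum_eq_single (wprod X l₀)⁻¹ (fun b _ hb => by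
        rw [Rp_col X h₀, if_neg hb, mul_zero]) (by simp),
      Finset.sum_eq_single v (fun b _ hb => by
        rw [Lp_col X hm, hmv, if_neg hb, mul_zero]) (by simp), Lp_col X hm, hmv, if_pos rfl,
      Rp_col X h₀, if_pos rfl, mul_one, mul_one] at hc
    exact hc.symm
  rw [hcol l h, hcol l' h', e]

/-- Left multiplication by `T w` and right multiplication by `T w⁻¹`. -/
noncomputable def C (t : R) (w : W) : Matrix W W R :=
  Lp X t (exists_reduced X w).choose * Rp X t (exists_reduced X w).choose

theorem C_eq (t : R) {l : List ι} (h : Reduced X l) :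
    C X t (wprod X l) = Lp X t l * Rp X t l := by
  obtain ⟨h1, h2⟩ := (exists_reduced X (wprod X l)).choose_spec
  rw [C, Lp_eq X h1 h h2, Rp_eq X h1 h h2]

theorem C_one (t : R) : C X t 1 = 1 := by
  have h : Reduced X ([] : List ι) := by simp [Reduced, wprod, X.len_one]
  have := C_eq X t h
  simpa [wprod, Lp, Rp] using this

theorem C_step (t : R) {i : ι} {w : W} (h : X.len w < X.len (X.s i * w)) :
    C X t (X.s i * w) = L X t i * Rt X t i * C X t w := by
  obtain ⟨l, hl, rfl⟩ := exists_reduced X w
  have hl' : Reduced X (i :: l) := by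
    have := X.step i (wprod X l)
    have hl0 : X.len (wprod X l) = l.length := hl
    unfold Reduced
    rw [wprod_cons, List.length_cons]
    omega
  rw [← wprod_cons, C_eq X t hl', C_eq X t hl]
  simp only [Lp, Rp, List.map_cons, List.prod_cons]
  have hc : Commute (l.map (L X t)).prod (Rt X t i) := by
    have := commute_Lp_Rp X t l [i]
    simpa [Lp, Rp] using this
  rw [mul_assoc (L X t i), ← mul_assoc (l.map (L X t)).prod, hc.eq]
  simp only [mul_assoc]

theorem C_map {S : Type*} [CommRing S] (f : R →+* S) (t : R) (w : W) :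
    (C X t w).map f = C X (f t) w := by
  have hL : ∀ i, (L X t i).map f = L X (f t) i := by
    intro i; ext x v
    simp only [Matrix.map_apply, L, Matrix.of_apply]
    split_ifs <;> simp
  have hR : ∀ i, (Rt X t i).map f = Rt X (f t) i := by
    intro i; ext x v
    simp only [Matrix.map_apply, Rt, Matrix.of_apply]
    split_ifs <;> simp
  show f.mapMatrix _ = _
  rw [C, C, map_mul, Lp, Rp, map_list_prod, map_list_prod, List.map_map, List.map_map]
  congr 2
  · exact List.map_congr_left fun i _ => hL i
  · exact List.map_congr_left fun i _ => hR i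

/-- A bound for the lengths. -/
def bound : ℕ := ∑ w : W, X.len w

theorem len_le_bound (w : W) : X.len w ≤ bound X :=
  Finset.single_le_sum (fun v _ => Nat.zero_le (X.len v)) (Finset.mem_univ w)

/-- The scaled Higman map. -/
noncomputable def Phi (t : R) : Matrix W W R := ∑ w : W, t ^ (bound X - X.len w) • C X t w

theorem Phi_map {S : Type*} [CommRing S] (f : R →+* S) (t : R) :
    (Phi X t).map f = Phi X (f t) := by
  ext x v
  simp [Phi, Matrix.sum_apply, ← C_map X f t]

/-- The image of the Higman map is central. -/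
theorem L_mul_Phi (t : R) (i : ι) : L X t i * Phi X t = Rt X t i * Phi X t := by
  classical
  let up := Finset.univ.filter fun w : W => X.len w < X.len (X.s i * w)
  have hsplit : Phi X t = ∑ w ∈ up, t ^ (bound X - X.len (X.s i * w)) •
      ((t • 1 + L X t i * Rt X t i) * C X t w) := by
    have hdown : ∑ w ∈ Finset.univ.filter (fun w : W => ¬ X.len w < X.len (X.s i * w)),
        t ^ (bound X - X.len w) • C X t w =
        ∑ w ∈ up, t ^ (bound X - X.len (X.s i * w)) • C X t (X.s i * w) := by
      refine Finset.sum_nbij' (fun w => X.s i * w) (fun w => X.s i * w) ?_ ?_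
        (fun w _ => X.s_mul_s_mul i w) (fun w _ => X.s_mul_s_mul i w) ?_
      · intro w hw
        simp only [up, Finset.mem_filter, Finset.mem_univ, true_and] at hw ⊢
        rw [X.s_mul_s_mul]
        have := X.step i w
        omega
      · intro w hw
        simp only [up, Finset.mem_filter, Finset.mem_univ, true_and] at hw ⊢
        rw [X.s_mul_s_mul]
        omega
      · intro w _
        rw [X.s_mul_s_mul]
    rw [Phi, ← Finset.sum_filter_add_sum_filter_not Finset.univ
      (fun w : W => X.len w < X.len (X.s i * w)), hdown, ← Finset.sum_add_distrib]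
    refine Finset.sum_congr rfl fun w hw => ?_
    simp only [up, Finset.mem_filter, Finset.mem_univ, true_and] at hw
    have := X.step i w
    have := len_le_bound X (X.s i * w)
    rw [C_step X t hw, show bound X - X.len w = (bound X - X.len (X.s i * w)) + 1 by omega,
      add_mul, smul_add, smul_mul_assoc, one_mul, smul_smul, pow_succ]
  have key : L X t i * (t • 1 + L X t i * Rt X t i) = Rt X t i * (t • 1 + L X t i * Rt X t i) := by
    have hLR := L_Rt_comm X t i i
    rw [mul_add, mul_add, ← mul_assoc, L_sq, hLR, ← mul_assoc, Rt_sq, add_mul, add_mul,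
      smul_mul_assoc, smul_mul_assoc, smul_mul_assoc, smul_mul_assoc, one_mul, one_mul,
      Matrix.mul_smul, Matrix.mul_smul, mul_one, mul_one, hLR]
    abel
  rw [hsplit, Finset.mul_sum, Finset.mul_sum]
  refine Finset.sum_congr rfl fun w _ => ?_
  rw [Matrix.mul_smul, Matrix.mul_smul, ← mul_assoc, key, mul_assoc]

/-! ### The centre -/

variable [Fintype ι]

/-- The commutator map with the generators. -/
def Comm (t : R) : Matrix (ι × W) W R := Matrix.of fun p w => (L X t p.1 - Rt X t p.1) p.2 w

theorem Comm_mul_Phi (t : R) : Comm X t * Phi X t = 0 := by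
  ext ⟨i, x⟩ v
  have h := congrFun (congrFun (show (L X t i - Rt X t i) * Phi X t = 0 by
    rw [sub_mul, L_mul_Phi, sub_self]) x) v
  simpa [Matrix.mul_apply, Comm] using h

theorem Comm_map {S : Type*} [CommRing S] (f : R →+* S) (t : R) :
    (Comm X t).map f = Comm X (f t) := by
  ext p w
  simp only [Matrix.map_apply, Comm, Matrix.of_apply, Matrix.sub_apply, map_sub, L, Rt]
  split_ifs <;> simp

/-- The centre, as a space of functions on the group. -/
noncomputable def centre (t : ℂ) : Submodule ℂ (W → ℂ) := LinearMap.ker (Comm X t).mulVecLin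

theorem mem_centre {t : ℂ} {v : W → ℂ} :
    v ∈ centre X t ↔ ∀ i, L X t i *ᵥ v = Rt X t i *ᵥ v := by
  simp only [centre, LinearMap.mem_ker, Matrix.mulVecLin_apply, funext_iff, Prod.forall,
    Pi.zero_apply, ← sub_eq_zero (a := (L X t _ *ᵥ v) _)]
  simp only [Matrix.mulVec, dotProduct, Comm, Matrix.of_apply, Matrix.sub_apply, sub_mul,
    Finset.sum_sub_distrib]

theorem range_Phi_le (t : ℂ) : LinearMap.range (Phi X t).mulVecLin ≤ centre X t := by
  rintro _ ⟨v, rfl⟩
  simp [centre, Matrix.mulVec_mulVec, Comm_mul_Phi]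

/-- Lower semicontinuity of the rank. -/
theorem exists_rank_le_poly {m n : Type*} [Fintype m] [Fintype n] [DecidableEq n]
    (M : Matrix m n ℂ[X]) (a : ℂ) :
    ∃ d : ℂ[X], d ≠ 0 ∧ ∀ x : ℂ, d.eval x ≠ 0 →
      (M.map (Polynomial.evalRingHom a)).rank ≤ (M.map (Polynomial.evalRingHom x)).rank := by
  classical
  set f := (M.map (Polynomial.evalRingHom a)).mulVecLin with hf
  set r := Module.finrank ℂ (LinearMap.range f) with hr
  have hra : (M.map (Polynomial.evalRingHom a)).rank = r := rfl
  let b := Module.finBasis ℂ (LinearMap.range f)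
  obtain ⟨p, hp⟩ := LinearMap.exists_extend (b.equivFun.toLinearMap)
  choose q hq using fun i => (b i).2
  let P : Matrix (Fin r) m ℂ := LinearMap.toMatrix' p
  let Q : Matrix n (Fin r) ℂ := Matrix.of fun j i => q i j
  let Z : Matrix (Fin r) (Fin r) ℂ[X] :=
    P.map Polynomial.C * M * Q.map Polynomial.C
  have hZ : ∀ x : ℂ, Z.map (Polynomial.evalRingHom x) =
      P * M.map (Polynomial.evalRingHom x) * Q := by
    intro x
    simp only [Z, Matrix.map_mul]
    congr 1
    · congr 1
      ext; simp
    · ext; simp
  have hone : Z.map (Polynomial.evalRingHom a) = 1 := by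
    rw [hZ]
    ext i j
    have e1 : (P * M.map (Polynomial.evalRingHom a) * Q) i j =
        (P *ᵥ (M.map (Polynomial.evalRingHom a) *ᵥ q j)) i := by
      rw [Matrix.mulVec_mulVec]; rfl
    rw [e1, LinearMap.toMatrix'_mulVec, show M.map (Polynomial.evalRingHom a) *ᵥ q j = _ from hq j]
    have := LinearMap.congr_fun hp (b j)
    simp only [LinearMap.comp_apply, Submodule.subtype_apply, LinearEquiv.coe_coe] at this
    rw [this]
    simp [Matrix.one_apply, Finsupp.single_apply, eq_comm]
  refine ⟨Z.det, fun h0 => ?_, fun x hx => ?_⟩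
  · have := congrArg (Polynomial.evalRingHom a) h0
    rw [RingHom.map_det, RingHom.mapMatrix_apply, hone, Matrix.det_one, map_zero] at this
    exact one_ne_zero this
  · have hdet : IsUnit (Z.map (Polynomial.evalRingHom x)).det := by
      rw [← RingHom.mapMatrix_apply, ← RingHom.map_det]
      exact isUnit_iff_ne_zero.2 (by simpa using hx)
    have hrank := Matrix.rank_of_isUnit _ ((Matrix.isUnit_iff_isUnit_det _).2 hdet)
    rw [hra, ← Fintype.card_fin r, ← hrank, hZ]
    exact (Matrix.rank_mul_le_left _ _).trans (Matrix.rank_mul_le_right _ _)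

theorem rank_Comm_add (t : ℂ) :
    (Comm X t).rank + Module.finrank ℂ (centre X t) = Fintype.card W := by
  have := LinearMap.finrank_range_add_finrank_ker (Comm X t).mulVecLin
  rw [Module.finrank_pi] at this
  exact this

/-- At a parameter where the Higman map is onto the centre, the centre has the same dimension
as at the parameter one. -/
theorem finrank_centre_eq {a b : ℂ}
    (ha : centre X a ≤ LinearMap.range (Phi X a).mulVecLin)
    (hb : centre X b ≤ LinearMap.range (Phi X b).mulVecLin) :
    Module.finrank ℂ (centre X a) = Module.finrank ℂ (centre X b) := by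
  suffices H : ∀ {a b : ℂ}, centre X a ≤ LinearMap.range (Phi X a).mulVecLin →
      Module.finrank ℂ (centre X a) ≤ Module.finrank ℂ (centre X b) from le_antisymm (H ha) (H hb)
  intro a b ha
  have hev : ∀ x : ℂ, Polynomial.evalRingHom x (Polynomial.X : ℂ[X]) = x := fun x => by simp
  obtain ⟨d₁, hd₁, h₁⟩ := exists_rank_le_poly (Phi X (Polynomial.X : ℂ[X])) a
  obtain ⟨d₂, hd₂, h₂⟩ := exists_rank_le_poly (Comm X (Polynomial.X : ℂ[X])) b
  obtain ⟨x, hx⟩ : ∃ x : ℂ, (d₁ * d₂).eval x ≠ 0 := by
    by_contra hcon
    push_neg at hcon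
    exact mul_ne_zero hd₁ hd₂ (Polynomial.funext (by simpa using hcon))
  rw [Polynomial.eval_mul] at hx
  have e₁ := h₁ x (left_ne_zero_of_mul hx)
  have e₂ := h₂ x (right_ne_zero_of_mul hx)
  rw [Phi_map, Phi_map, hev, hev] at e₁
  rw [Comm_map, Comm_map, hev, hev] at e₂
  have h3 : (Phi X x).rank ≤ Module.finrank ℂ (centre X x) :=
    Submodule.finrank_mono (range_Phi_le X x)
  have h4 : Module.finrank ℂ (centre X a) ≤ (Phi X a).rank := Submodule.finrank_mono ha
  have h5 := rank_Comm_add X x
  have h6 := rank_Comm_add X b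
  omega

theorem L_one (i : ι) (x w : W) : L X (1 : ℂ) i x w = if x = X.s i * w then 1 else 0 := by
  simp only [L, Matrix.of_apply]
  split_ifs <;> simp

theorem Rt_one (i : ι) (x w : W) : Rt X (1 : ℂ) i x w = if x = w * X.s i then 1 else 0 := by
  simp only [Rt, Matrix.of_apply]
  split_ifs <;> simp

theorem L_one_mulVec (i : ι) (v : W → ℂ) (x : W) : (L X 1 i *ᵥ v) x = v (X.s i * x) := by
  simp only [Matrix.mulVec, dotProduct, L_one, ite_mul, one_mul, zero_mul]
  rw [Finset.sum_eq_single (X.s i * x) (fun b _ hb => if_neg fun e => hb (by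
    rw [e, X.s_mul_s_mul])) (by simp), if_pos (X.s_mul_s_mul i x).symm]

theorem Rt_one_mulVec (i : ι) (v : W → ℂ) (x : W) : (Rt X 1 i *ᵥ v) x = v (x * X.s i) := by
  simp only [Matrix.mulVec, dotProduct, Rt_one, ite_mul, one_mul, zero_mul]
  rw [Finset.sum_eq_single (x * X.s i) (fun b _ hb => if_neg fun e => hb (by
    rw [e, X.mul_s_mul_s])) (by simp), if_pos (X.mul_s_mul_s i x).symm]

theorem mem_centre_one {v : W → ℂ} :
    v ∈ centre X 1 ↔ ∀ g h : W, v (h * g * h⁻¹) = v g := by
  rw [mem_centre]
  simp only [funext_iff, L_one_mulVec, Rt_one_mulVec]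
  constructor
  · intro H g h
    obtain ⟨l, -, rfl⟩ := exists_reduced X h
    induction l generalizing g with
    | nil => simp [wprod]
    | cons i l ih =>
      rw [wprod_cons, _root_.mul_inv_rev, X.s_inv,
        show X.s i * wprod X l * g * ((wprod X l)⁻¹ * X.s i) =
          X.s i * (wprod X l * g * (wprod X l)⁻¹ * X.s i) by simp only [mul_assoc], H i,
        X.mul_s_mul_s]
      exact ih g
  · intro H i x
    have := H (x * X.s i) (X.s i)
    rwa [X.s_inv, ← mul_assoc, X.mul_s_mul_s] at this

theorem centre_one_le : centre X 1 ≤ LinearMap.range (Phi X (1 : ℂ)).mulVecLin := by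
  intro v hv
  refine ⟨(Fintype.card W : ℂ)⁻¹ • v, ?_⟩
  have hfix : ∀ (l : List ι), Reduced X l → C X (1 : ℂ) (wprod X l) *ᵥ v = v := by
    intro l
    induction l with
    | nil => intro _; simp [wprod, C_one]
    | cons i l ih =>
      intro h
      have ht : X.len (wprod X l) < X.len (X.s i * wprod X l) := by
        rw [← wprod_cons, show X.len (wprod X (i :: l)) = _ from h,
          show X.len (wprod X l) = _ from h.tail]
        simp
      rw [wprod_cons, C_step X 1 ht, ← Matrix.mulVec_mulVec, ih h.tail, ← Matrix.mulVec_mulVec,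
        ← (mem_centre X).1 hv i, Matrix.mulVec_mulVec, L_sq]
      simp
  have hw : ∀ w : W, C X (1 : ℂ) w *ᵥ v = v := fun w => by
    obtain ⟨l, hl, rfl⟩ := exists_reduced X w
    exact hfix l hl
  rw [Matrix.mulVecLin_apply, Matrix.mulVec_smul, Phi, Matrix.sum_mulVec]
  simp only [one_pow, one_smul, hw, Finset.sum_const, Finset.card_univ]
  rw [← Nat.cast_smul_eq_nsmul ℂ, smul_smul, inv_mul_cancel₀ (by simp), one_smul]

theorem finrank_centre_one : Module.finrank ℂ (centre X 1) = Nat.card (ConjClasses W) := by
  classical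
  let T : (ConjClasses W → ℂ) →ₗ[ℂ] (W → ℂ) := LinearMap.funLeft ℂ ℂ ConjClasses.mk
  have hT : Function.Injective T := LinearMap.funLeft_injective_of_surjective _ _ _
    ConjClasses.mk_surjective
  have hr : centre X 1 = LinearMap.range T := by
    ext v
    rw [mem_centre_one]
    constructor
    · intro h
      refine ⟨Quotient.lift v (fun a b hab => ?_), rfl⟩
      obtain ⟨c, hc⟩ := isConj_iff.1 hab
      rw [← hc, h]
    · rintro ⟨f, rfl⟩ g h
      simp only [T, LinearMap.funLeft_apply]
      congr 1
      exact ConjClasses.mk_eq_mk_iff_isConj.2 (isConj_iff.2 ⟨h⁻¹, by group⟩)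
  rw [hr, LinearMap.finrank_range_of_inj hT, Module.finrank_pi, Nat.card_eq_fintype_card]

/-- The main statement. -/
theorem finrank_centre {a : ℂ} (ha : centre X a ≤ LinearMap.range (Phi X a).mulVecLin) :
    Module.finrank ℂ (centre X a) = Nat.card (ConjClasses W) :=
  (finrank_centre_eq X ha (centre_one_le X)).trans (finrank_centre_one X)

end CfsgLib.InvCentralizers.HeckeGeneric
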