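import Cfsg.Agent.Lib.InvCentralizers.HeckeChevalley
import Cfsg.Agent.Lib.InvCentralizers.HeckeCentre

/-!
Constituents of the permutation character on the cosets of the Borel subgroup of a Chevalley group.
-/

set_option autoImplicit false

namespace CfsgLib.InvCentralizers.HeckeMain

open Cfsg.Lie CfsgLib.Chevalley CfsgLib.InvCentralizers.HeckeWeyl

theorem main {F : Type*} [Field F] [Fintype F] {D : ChevalleyDatum} {A : Aux} (h : Full D A)
    {M : CoxeterMatrix (Fin D.rank)} {cart : Fin D.rank → Fin D.rank → ℤ}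
    {Ls : List CfsgLib.Twisted.Cox.Level}
    (hcart : ∀ i j : Fin D.rank, cart j i = D.cartan i (D.simple j))
    (T : CfsgLib.Twisted.Cox.Tower M cart Ls) :
    Nat.card {χ : Cfsg.IrrCharacter ↥(D.group F) //
      ∃ φ : ↥(D.group F) → ℂ, Cfsg.IsCharacter ↥(D.group F) φ ∧
        Cfsg.fixedPointCharacter ((D.borelSubgroup F).subgroupOf (D.group F)) =
          (χ : ↥(D.group F) → ℂ) + φ} = Nat.card (ConjClasses M.Group) := by
  classical
  haveI : Fintype ↥(D.group F) := Fintype.ofFinite _
  rw [← HeckeChevalley.card_conjClasses_weyl (F := F) h hcart T,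
    ← HeckeCentre.card_constituents (P := bnPair h F) (fun s hs => HeckeChevalley.card_cell h hs)
      Fintype.card_ne_zero]
  refine Nat.card_congr (Equiv.subtypeEquivRight fun χ => ?_)
  exact HeckeCentre.sum_eq_zero_iff χ _

end CfsgLib.InvCentralizers.HeckeMain
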