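import Cfsg.Agent.Lib.BNPair.Coxeter
import Cfsg.Agent.Lib.InvCentralizers.HeckeGeneric
import Cfsg.Agent.Lib.InvCentralizers.SteinbergChar
import Cfsg.Agent.Lib.Blocks.GroupRing

/-!
The Hecke algebra of a finite group with a (B,N)-pair inside the group algebra.
-/

set_option autoImplicit false
set_option linter.unusedSectionVars false
set_option linter.style.haveILetI false

namespace CfsgLib.InvCentralizers.HeckeWeyl

open CfsgLib.BNPair CfsgLib.InvCentralizers.HeckeGeneric CfsgLib.Blocks MonoidAlgebra Matrix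

variable {G : Type*} [Group G] {P : Cfsg.BNPair G}
variable [hN : ((P.B ⊓ P.N).subgroupOf P.N).Normal]

/-- The Weyl group. -/
abbrev Weyl (P : Cfsg.BNPair G) : Type _ := P.N ⧸ (P.B ⊓ P.N).subgroupOf P.N

/-- The length in the Weyl group. -/
noncomputable def wlen (w : Weyl P) : ℕ := len P ((w.out : P.N) : G)

theorem wlen_mk (n : P.N) : wlen (QuotientGroup.mk n : Weyl P) = len P (n : G) :=
  len_congr (mk_eq_iff.1 (Quotient.out_eq _))

theorem wlen_weylProd (l : List P.S) : wlen (weylProd P l) = len P (gval l).prod := by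
  rw [weylProd_mk, wlen_mk]

theorem wlen_of_wReduced {l : List P.S} (h : WReduced P l) : wlen (weylProd P l) = l.length := by
  rw [wlen_weylProd, (wReduced_iff.1 h).2]
  simp [gval]

theorem wReduced_of_wlen {l : List P.S} (h : wlen (weylProd P l) = l.length) : WReduced P l :=
  wReduced_iff.2 ⟨gval_isWord l, by rw [← wlen_weylProd, h]; simp [gval]⟩

theorem exists_wReduced (w : Weyl P) : ∃ l, WReduced P l ∧ weylProd P l = w := by
  induction w using QuotientGroup.induction_on with
  | _ n =>
    obtain ⟨l, hl, hag, hlen⟩ := exists_reduced n.2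
    lift l to List P.S using hl
    refine ⟨l, wReduced_of_wlen ?_, ?_⟩
    · rw [wlen_weylProd]
      exact (len_congr (show Agree P (gval l).prod (n : G) from hag)).trans
        (hlen.symm.trans (List.length_map _))
    · rw [weylProd_mk]; exact mk_eq_iff.2 hag

/-- The Weyl group as a Hecke datum. -/
noncomputable def datum (P : Cfsg.BNPair G) [((P.B ⊓ P.N).subgroupOf P.N).Normal] :
    Datum (Weyl P) P.S where
  s := weylGen P
  len := wlen
  sq := weylGen_mul_self
  len_one := by
    rw [← QuotientGroup.mk_one, wlen_mk]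
    exact (len_eq_zero P.N.one_mem).2 P.B.one_mem
  step i w := by
    induction w using QuotientGroup.induction_on with
    | _ n =>
      rw [weylGen, ← QuotientGroup.mk_mul, wlen_mk, wlen_mk, Subgroup.coe_mul]
      have := len_mul_le i.2 n.2
      have := len_le_mul i.2 n.2
      have := len_mul_ne i.2 n.2
      simp only at *
      omega
  inv w := by
    induction w using QuotientGroup.induction_on with
    | _ n => rw [← QuotientGroup.mk_inv, wlen_mk, wlen_mk]; exact len_inv n.2
  descent w hw := by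
    obtain ⟨l, hl, rfl⟩ := exists_wReduced w
    cases l with
    | nil => exact absurd (by simp [weylProd]) hw
    | cons i l =>
      refine ⟨i, ?_⟩
      rw [wlen_of_wReduced hl, weylProd_cons, ← mul_assoc, weylGen_mul_self, one_mul,
        wlen_of_wReduced ((hl.of_append (l := [i])).2)]
      simp
  key i j w h1 h2 h3 := by
    obtain ⟨l, hl, rfl⟩ := exists_wReduced w
    have hlr : weylProd P (l ++ [j]) = weylProd P l * weylGen P j := by
      simp [weylProd]
    have hll := wlen_of_wReduced hl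
    have hle : ∀ l' : List P.S, wlen (weylProd P l') ≤ l'.length := fun l' => by
      rw [wlen_weylProd]
      exact (len_le (gval_isWord l') (Agree.refl _)).trans (List.length_map _).le
    have hred : WReduced P (l ++ [j]) := by
      refine wReduced_of_wlen ?_
      have := hle (l ++ [j])
      simp only [hlr, List.length_append, List.length_singleton] at this ⊢
      omega
    obtain ⟨k, hk, e⟩ := weyl_exchange (s := i) hred fun hc => by
      have := wlen_of_wReduced hc
      rw [weylProd_cons, hlr, ← mul_assoc] at this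
      simp only [List.length_cons, List.length_append, List.length_singleton] at this
      omega
    rw [weylProd_cons, hlr, ← mul_assoc] at e
    rcases Nat.lt_or_ge k l.length with hkl | hkl
    · exfalso
      rw [List.eraseIdx_append_of_lt_length hkl, weylProd_append] at e
      have e' : weylGen P i * weylProd P l = weylProd P (l.eraseIdx k) :=
        mul_right_cancel (e.trans (by simp [weylProd]))
      have := hle (l.eraseIdx k)
      rw [← e', List.length_eraseIdx_of_lt hkl] at this
      omega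
    · have hk' : k = l.length := by simp at hk; omega
      subst hk'
      rw [List.eraseIdx_append_of_length_le le_rfl] at e
      simp only [Nat.sub_self, List.eraseIdx_zero, List.tail_cons, List.append_nil] at e
      calc weylGen P i * weylProd P l
          = weylGen P i * weylProd P l * weylGen P j * weylGen P j := by
            rw [mul_assoc (_ * _) (weylGen P j), weylGen_mul_self, mul_one]
        _ = weylProd P l * weylGen P j := by rw [e]

variable [Fintype G]

/-- The cell of an element of `G`. -/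
noncomputable def cl (x : G) : Weyl P :=
  QuotientGroup.mk (⟨SteinbergChar.rep P (x : G ⧸ P.B), SteinbergChar.rep_mem _⟩ : P.N)

theorem cl_eq {x : G} {n : P.N} (h : x ∈ cell P (n : G)) :
    (cl x : Weyl P) = QuotientGroup.mk n :=
  mk_eq_iff.2 (agree_of_mem_cell (SteinbergChar.rep_mem _) n.2 (SteinbergChar.mem_cell_rep x) h)

theorem mem_cell_cl (x : G) : x ∈ cell P (((cl x : Weyl P).out : P.N) : G) := by
  rw [cell_eq_of_agree (mk_eq_iff.1 (Quotient.out_eq (cl x : Weyl P)))]
  exact SteinbergChar.mem_cell_rep x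

theorem mem_cell_iff {x : G} {n : P.N} :
    x ∈ cell P (n : G) ↔ (cl x : Weyl P) = QuotientGroup.mk n :=
  ⟨cl_eq, fun h => by
    rw [← cell_eq_of_agree (mk_eq_iff.1 ((Quotient.out_eq (cl x : Weyl P)).trans h))]
    exact mem_cell_cl x⟩

theorem cl_left_mul {b : G} (hb : b ∈ P.B) (x : G) : (cl (b * x) : Weyl P) = cl x :=
  (cl_eq (left_mul_mem_cell hb (mem_cell_cl x))).trans (Quotient.out_eq _)

theorem cl_right_mul {b : G} (hb : b ∈ P.B) (x : G) : (cl (x * b) : Weyl P) = cl x :=
  (cl_eq (right_mul_mem_cell hb (mem_cell_cl x))).trans (Quotient.out_eq _)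

theorem cl_inv (x : G) : (cl x⁻¹ : Weyl P) = (cl x)⁻¹ := by
  have h := inv_mem_cell (mem_cell_cl (P := P) x)
  rw [← Subgroup.coe_inv] at h
  rw [cl_eq h, QuotientGroup.mk_inv]
  exact congrArg _ (Quotient.out_eq _)

theorem cl_coe (n : P.N) : (cl (n : G) : Weyl P) = QuotientGroup.mk n := cl_eq (self_mem_cell _)

theorem cl_eq_one {x : G} : (cl x : Weyl P) = 1 ↔ x ∈ P.B := by
  rw [← QuotientGroup.mk_one, ← mem_cell_iff, Subgroup.coe_one, mem_cell_of_mem_B P.B.one_mem]
  rfl

theorem cl_eq_gen {x : G} (i : P.S) : (cl x : Weyl P) = weylGen P i ↔ x ∈ cell P (i : G) :=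
  (mem_cell_iff (n := ⟨(i : G), P.subset i.2⟩)).symm

theorem cl_gen_mul (i : P.S) (x : G) :
    (cl ((i : G) * x) : Weyl P) = weylGen P i * cl x ∨ (cl ((i : G) * x) : Weyl P) = cl x := by
  obtain ⟨n, hn⟩ : ∃ n : P.N, (cl x : Weyl P) = QuotientGroup.mk n := ⟨_, (Quotient.out_eq _).symm⟩
  rw [hn, weylGen, ← QuotientGroup.mk_mul]
  rcases cell_mul_left i.2 n.2 (mem_cell_iff.2 hn) with h | h
  · exact Or.inl (cl_eq (n := (⟨(i : G), P.subset i.2⟩ : P.N) * n) (by simpa using h))
  · exact Or.inr (cl_eq h)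

theorem cl_gen_mul_of_lt (i : P.S) {x : G} (h : wlen (cl x : Weyl P) < wlen (weylGen P i * cl x)) :
    (cl ((i : G) * x) : Weyl P) = weylGen P i * cl x := by
  obtain ⟨n, hn⟩ : ∃ n : P.N, (cl x : Weyl P) = QuotientGroup.mk n := ⟨_, (Quotient.out_eq _).symm⟩
  rw [hn, weylGen, ← QuotientGroup.mk_mul] at h ⊢
  rw [wlen_mk, wlen_mk, Subgroup.coe_mul] at h
  exact cl_eq (n := (⟨(i : G), P.subset i.2⟩ : P.N) * n)
    (by simpa using mul_cell_of_le i.2 n.2 h.le (mem_cell_iff.2 hn))

theorem cl_cell_mul (i : P.S) {y : G} (hy : (cl y : Weyl P) = weylGen P i) (x : G) :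
    ((cl (y * x) : Weyl P) = weylGen P i * cl x ∨ (cl (y * x) : Weyl P) = cl x) ∧
      (wlen (cl x : Weyl P) < wlen (weylGen P i * cl x) →
        (cl (y * x) : Weyl P) = weylGen P i * cl x) := by
  obtain ⟨a, ha, c, hc, rfl⟩ := mem_cell.1 ((cl_eq_gen i).1 hy)
  rw [show a * (i : G) * c * x = a * ((i : G) * (c * x)) by group, cl_left_mul ha]
  have h := cl_left_mul (P := P) hc x
  exact ⟨by rw [← h]; exact cl_gen_mul i _, fun hlt => by
    rw [cl_gen_mul_of_lt i (by rwa [h]), h]⟩

/-- An element of `cell s` sending `x` down is unique up to `B`. -/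
theorem exists_down (i : P.S) {x : G} (h : wlen (weylGen P i * cl x) < wlen (cl x : Weyl P)) :
    ∃ y₀ : G, ∀ y : G, ((cl y : Weyl P) = weylGen P i ∧
      (cl (y⁻¹ * x) : Weyl P) = weylGen P i * cl x) ↔ y₀⁻¹ * y ∈ P.B := by
  obtain ⟨m, hm⟩ : ∃ m : P.N, weylGen P i * (cl x : Weyl P) = QuotientGroup.mk m :=
    ⟨_, (Quotient.out_eq _).symm⟩
  have hx : (cl x : Weyl P) = weylGen P i * QuotientGroup.mk m := by
    rw [← hm, ← mul_assoc, weylGen_mul_self, one_mul]
  obtain ⟨a, ha, c, hc, e⟩ := mem_cell.1 ((mem_cell_iff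
    (n := (⟨(i : G), P.subset i.2⟩ : P.N) * m)).2 (by rw [hx, weylGen, ← QuotientGroup.mk_mul]))
  rw [Subgroup.coe_mul] at e
  have hup : wlen (QuotientGroup.mk m : Weyl P) < wlen (weylGen P i * QuotientGroup.mk m) := by
    rw [← hx, ← hm]; exact h
  have h1 : (cl (a * (i : G)) : Weyl P) = weylGen P i := (cl_left_mul ha _).trans
    ((cl_eq_gen i).2 (self_mem_cell _))
  have h2 : (cl ((a * (i : G))⁻¹ * x) : Weyl P) = QuotientGroup.mk m := by
    rw [e, show (a * (i : G))⁻¹ * (a * ((i : G) * m) * c) = (m : G) * c by group, cl_right_mul hc,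
      cl_coe]
  refine ⟨a * (i : G), fun y => ⟨?_, fun hy => ?_⟩⟩
  · rintro ⟨hy, hyx⟩
    rw [hm] at hyx
    have hinv : ∀ z : G, (cl z : Weyl P) = weylGen P i → (cl z⁻¹ : Weyl P) = weylGen P i := fun z hz => by
      rw [cl_inv, hz]; exact inv_eq_of_mul_eq_one_right (weylGen_mul_self i)
    rcases (cl_cell_mul i (hinv _ h1) y).1 with h3 | h3
    · rw [hy, weylGen_mul_self] at h3
      exact cl_eq_one.1 h3
    · exfalso
      rw [hy] at h3
      have h5 := (cl_cell_mul i h3 (y⁻¹ * x)).2 (by rwa [hyx])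
      rw [show (a * (i : G))⁻¹ * y * (y⁻¹ * x) = (a * (i : G))⁻¹ * x by group, h2, hyx] at h5
      rw [← h5] at hup
      exact lt_irrefl _ hup
  · have e' : y = a * (i : G) * ((a * (i : G))⁻¹ * y) := by group
    rw [hm]
    refine ⟨by rw [e', cl_right_mul hy, h1], ?_⟩
    rw [e', _root_.mul_inv_rev, mul_assoc, cl_left_mul (P.B.inv_mem hy), h2]

/-! ### The group algebra -/

noncomputable instance : Fintype (Weyl P) := Fintype.ofFinite _

/-- The bi-invariant element with prescribed values on the cells. -/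
noncomputable def E (P : Cfsg.BNPair G) [((P.B ⊓ P.N).subgroupOf P.N).Normal] :
    (Weyl P → ℂ) →ₗ[ℂ] MonoidAlgebra ℂ G where
  toFun v := ofFun fun x => v (cl x)
  map_add' v w := MonoidAlgebra.ext (Finsupp.ext fun x => by simp)
  map_smul' c v := MonoidAlgebra.ext (Finsupp.ext fun x => by simp)

@[simp] theorem coeff_E (v : Weyl P → ℂ) (x : G) : (E P v).coeff x = v (cl x) := rfl

theorem E_injective : Function.Injective (E P) := fun v w h => funext fun z => by
  have := congrArg (fun a : MonoidAlgebra ℂ G => a.coeff ((z.out : P.N) : G)) h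
  simp only [coeff_E, cl_coe] at this
  rwa [show (QuotientGroup.mk z.out : Weyl P) = z from Quotient.out_eq z] at this

open scoped Classical in
/-- The standard basis elements. -/
noncomputable def T (w : Weyl P) : MonoidAlgebra ℂ G :=
  (Nat.card P.B : ℂ)⁻¹ • E P (Pi.single w 1)

open scoped Classical in
theorem coeff_T (w : Weyl P) (x : G) :
    (T w).coeff x = if (cl x : Weyl P) = w then (Nat.card P.B : ℂ)⁻¹ else 0 := by
  rw [T, coeff_smul_apply, coeff_E]
  simp [Pi.single_apply]

theorem card_B_ne_zero : (Nat.card P.B : ℂ) ≠ 0 := Nat.cast_ne_zero.2 Nat.card_pos.ne'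

open scoped Classical in
theorem coeff_T_one_mul (a : MonoidAlgebra ℂ G) (g : G) :
    (T (1 : Weyl P) * a).coeff g = (Nat.card P.B : ℂ)⁻¹ * ∑ b : P.B, a.coeff ((b : G)⁻¹ * g) := by
  rw [coeff_mul_eq_sum, Finset.mul_sum]
  simp only [coeff_T, cl_eq_one, ite_mul, zero_mul, ← Finset.sum_filter]
  exact (Finset.sum_subtype _ (fun x => by simp) fun x => (Nat.card P.B : ℂ)⁻¹ * a.coeff (x⁻¹ * g))

open scoped Classical in
theorem coeff_mul_T_one (a : MonoidAlgebra ℂ G) (g : G) :
    (a * T (1 : Weyl P)).coeff g = (Nat.card P.B : ℂ)⁻¹ * ∑ b : P.B, a.coeff (g * (b : G)) := by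
  rw [coeff_mul_eq_sum, Finset.mul_sum]
  simp only [coeff_T, cl_eq_one]
  rw [← Equiv.sum_comp (Equiv.mulLeft g)]
  simp only [Equiv.coe_mulLeft, mul_ite, mul_zero, _root_.mul_inv_rev, mul_assoc, inv_mul_cancel,
    mul_one, Subgroup.inv_mem_iff, ← Finset.sum_filter]
  exact (Finset.sum_subtype _ (fun x => by simp) fun x =>
    a.coeff (g * x) * (Nat.card P.B : ℂ)⁻¹).trans (Finset.sum_congr rfl fun x _ => mul_comm _ _)

theorem T_one_mul_of_left {a : MonoidAlgebra ℂ G}
    (h : ∀ b ∈ P.B, ∀ g, a.coeff (b * g) = a.coeff g) : T (1 : Weyl P) * a = a := by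
  classical
  refine MonoidAlgebra.ext (Finsupp.ext fun g => ?_)
  rw [coeff_T_one_mul, Finset.sum_congr rfl fun b _ => h _ (P.B.inv_mem b.2) g, Finset.sum_const,
    Finset.card_univ, nsmul_eq_mul, ← mul_assoc, ← Nat.card_eq_fintype_card,
    inv_mul_cancel₀ card_B_ne_zero, one_mul]

theorem mul_T_one_of_right {a : MonoidAlgebra ℂ G}
    (h : ∀ b ∈ P.B, ∀ g, a.coeff (g * b) = a.coeff g) : a * T (1 : Weyl P) = a := by
  classical
  refine MonoidAlgebra.ext (Finsupp.ext fun g => ?_)
  rw [coeff_mul_T_one, Finset.sum_congr rfl fun b _ => h _ b.2 g, Finset.sum_const,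
    Finset.card_univ, nsmul_eq_mul, ← mul_assoc, ← Nat.card_eq_fintype_card,
    inv_mul_cancel₀ card_B_ne_zero, one_mul]

theorem T_one_mul_E (v : Weyl P → ℂ) : T (1 : Weyl P) * E P v = E P v :=
  T_one_mul_of_left fun b hb g => by simp [cl_left_mul hb]

theorem E_mul_T_one (v : Weyl P → ℂ) : E P v * T (1 : Weyl P) = E P v :=
  mul_T_one_of_right fun b hb g => by simp [cl_right_mul hb]

theorem L_inv_apply {R : Type*} [CommRing R] [DecidableEq (Weyl P)] (t : R) (i : P.S)
    (x w : Weyl P) : Rt (datum P) t i x w = L (datum P) t i x⁻¹ w⁻¹ := by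
  have e : (w * weylGen P i)⁻¹ = weylGen P i * w⁻¹ := by
    rw [_root_.mul_inv_rev, show (weylGen P i)⁻¹ = weylGen P i from
      inv_eq_of_mul_eq_one_right (weylGen_mul_self i)]
  have h1 : wlen (w * weylGen P i) = wlen (weylGen P i * w⁻¹) := by
    rw [← e]; exact ((datum P).inv _).symm
  simp only [Rt, L, Matrix.of_apply, datum, h1, show wlen w⁻¹ = wlen w from (datum P).inv w, ← e,
    _root_.inv_inj]
  congr!

variable [DecidableEq (Weyl P)] {q : ℕ}
variable (hq : ∀ s ∈ P.S, Nat.card (cell P s) = q * Nat.card P.B)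
include hq

theorem sum_cell_left (i : P.S) (v : Weyl P → ℂ) (x : G) :
    ∑ y : G, (if (cl y : Weyl P) = weylGen P i then v (cl (y⁻¹ * x)) else 0) =
      (Nat.card P.B : ℂ) * (L (datum P) (q : ℂ) i *ᵥ v) (cl x) := by
  classical
  set C := Finset.univ.filter fun y : G => (cl y : Weyl P) = weylGen P i with hC
  have hcard : (C.card : ℂ) = (q : ℂ) * (Nat.card P.B : ℂ) := by
    rw [← Nat.cast_mul, ← hq _ i.2, Nat.cast_inj, Nat.card_eq_fintype_card, ← Fintype.card_subtype]
    exact Fintype.card_congr (Equiv.subtypeEquivRight fun y => cl_eq_gen i)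
  have hmem : ∀ y ∈ C, (cl (y⁻¹) : Weyl P) = weylGen P i := fun y hy => by
    rw [cl_inv, (Finset.mem_filter.1 hy).2]
    exact inv_eq_of_mul_eq_one_right (weylGen_mul_self i)
  rw [← Finset.sum_filter]
  have hstep : wlen (weylGen P i * cl x) = wlen (cl x : Weyl P) + 1 ∨
      wlen (weylGen P i * cl x) + 1 = wlen (cl x : Weyl P) := (datum P).step i _
  have hLv : (L (datum P) (q : ℂ) i *ᵥ v) (cl x) =
      if wlen (cl x : Weyl P) < wlen (weylGen P i * cl x) then (q : ℂ) * v (weylGen P i * cl x)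
      else v (weylGen P i * cl x) + ((q : ℂ) - 1) * v (cl x) := by
    have e : weylGen P i * (weylGen P i * cl x) = cl x := by
      rw [← mul_assoc, weylGen_mul_self, one_mul]
    have hiff : ∀ w : Weyl P, cl x = weylGen P i * w ↔ w = weylGen P i * cl x := fun w =>
      ⟨fun h => by rw [h, ← mul_assoc, weylGen_mul_self, one_mul], fun h => by rw [h, e]⟩
    simp only [Matrix.mulVec, dotProduct, L, Matrix.of_apply,
      show (datum P).s = weylGen P from rfl, show (datum P).len = wlen from rfl]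
    have hsplit : ∀ w : Weyl P,
        (if wlen w < wlen (weylGen P i * w) then (if cl x = weylGen P i * w then (1 : ℂ) else 0)
          else (if cl x = weylGen P i * w then (q : ℂ) else 0) +
            (if cl x = w then (q : ℂ) - 1 else 0)) * v w =
        (if w = weylGen P i * cl x then
          (if wlen (cl x : Weyl P) < wlen (weylGen P i * cl x) then (q : ℂ) else 1) * v w else 0) +
        (if w = cl x then
          (if wlen (cl x : Weyl P) < wlen (weylGen P i * cl x) then 0 else (q : ℂ) - 1) * v w else 0) := by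
      intro w
      by_cases h1 : w = weylGen P i * cl x
      · subst h1
        have hne : ¬ cl x = weylGen P i * cl x := fun h => by rw [← h] at hstep; omega
        simp only [e, if_true, if_neg (Ne.symm hne), if_neg hne]
        split_ifs <;> first
          | (exfalso; omega)
          | ring
      · have h2 : ¬ cl x = weylGen P i * w := fun h => h1 ((hiff w).1 h)
        simp only [if_neg h1, if_neg h2, zero_add]
        by_cases h3 : w = cl x
        · subst h3; simp only [if_true]
        · simp only [if_neg h3, if_neg (Ne.symm h3)]; split_ifs <;> ring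
    rw [Finset.sum_congr rfl fun w _ => hsplit w, Finset.sum_add_distrib, Finset.sum_ite_eq',
      Finset.sum_ite_eq']
    simp only [Finset.mem_univ, if_true]
    split_ifs <;> ring
  rw [hLv]
  split_ifs with hup
  · rw [Finset.sum_congr rfl fun y hy => congrArg v ((cl_cell_mul i (hmem y hy) x).2 hup),
      Finset.sum_const, nsmul_eq_mul, hcard]
    ring
  · obtain ⟨y₀, hy₀⟩ := exists_down i (x := x) (by omega)
    have hf : (C.filter fun y => (cl (y⁻¹ * x) : Weyl P) = weylGen P i * cl x).card =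
        Nat.card P.B := by
      rw [Finset.filter_filter, ← Fintype.card_subtype, ← Nat.card_eq_fintype_card]
      refine Nat.card_congr
        { toFun := fun y => ⟨y₀⁻¹ * y.1, (hy₀ y.1).1 y.2⟩
          invFun := fun b => ⟨y₀ * b.1, (hy₀ _).2 (by simp [b.2])⟩
          left_inv := fun y => by ext; simp
          right_inv := fun b => by ext; simp }
    have hrest : ∀ y ∈ C.filter (fun y => ¬ (cl (y⁻¹ * x) : Weyl P) = weylGen P i * cl x),
        v (cl (y⁻¹ * x)) = v (cl x) := by
      intro y hy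
      obtain ⟨hy, hne⟩ := Finset.mem_filter.1 hy
      rw [(cl_cell_mul i (hmem y hy) x).1.resolve_left hne]
    rw [← Finset.sum_filter_add_sum_filter_not C
        (fun y => (cl (y⁻¹ * x) : Weyl P) = weylGen P i * cl x),
      Finset.sum_congr rfl (fun y hy => congrArg v (Finset.mem_filter.1 hy).2),
      Finset.sum_congr rfl hrest, Finset.sum_const, Finset.sum_const, nsmul_eq_mul, nsmul_eq_mul]
    have htot := Finset.card_filter_add_card_filter_not (s := C)
      (fun y => (cl (y⁻¹ * x) : Weyl P) = weylGen P i * cl x)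
    rw [hf] at htot ⊢
    rw [← htot, Nat.cast_add] at hcard
    rw [eq_sub_of_add_eq' hcard]
    ring

theorem E_L (i : P.S) (v : Weyl P → ℂ) :
    E P (L (datum P) (q : ℂ) i *ᵥ v) = T (weylGen P i) * E P v := by
  classical
  refine MonoidAlgebra.ext (Finsupp.ext fun x => ?_)
  rw [coeff_mul_eq_sum, coeff_E]
  simp only [coeff_T, coeff_E, ite_mul, zero_mul]
  rw [show ∑ y : G, (if (cl y : Weyl P) = weylGen P i then (Nat.card P.B : ℂ)⁻¹ * v (cl (y⁻¹ * x))
      else 0) = (Nat.card P.B : ℂ)⁻¹ * ∑ y : G,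
        (if (cl y : Weyl P) = weylGen P i then v (cl (y⁻¹ * x)) else 0) by
    rw [Finset.mul_sum]; exact Finset.sum_congr rfl fun y _ => by split_ifs <;> simp]
  rw [sum_cell_left hq, ← mul_assoc, inv_mul_cancel₀ card_B_ne_zero, one_mul]

theorem E_Rt (i : P.S) (v : Weyl P → ℂ) :
    E P (Rt (datum P) (q : ℂ) i *ᵥ v) = E P v * T (weylGen P i) := by
  classical
  have hginv : (weylGen P i)⁻¹ = weylGen P i := inv_eq_of_mul_eq_one_right (weylGen_mul_self i)
  refine MonoidAlgebra.ext (Finsupp.ext fun x => ?_)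
  rw [coeff_mul_eq_sum, coeff_E]
  simp only [coeff_T, coeff_E]
  have h := sum_cell_left hq i (fun w => v w⁻¹) x⁻¹
  have e : (L (datum P) (q : ℂ) i *ᵥ fun w => v w⁻¹) (cl x⁻¹) =
      (Rt (datum P) (q : ℂ) i *ᵥ v) (cl x) := by
    simp only [Matrix.mulVec, dotProduct, L_inv_apply, cl_inv]
    exact (Equiv.sum_comp (Equiv.inv (Weyl P)) (fun w =>
      L (datum P) (q : ℂ) i (cl x)⁻¹ w * v w⁻¹)).symm.trans
      (Finset.sum_congr rfl fun w _ => by simp)
  rw [e] at h
  rw [← inv_mul_cancel_left₀ (card_B_ne_zero (P := P)) ((Rt (datum P) (q : ℂ) i *ᵥ v) (cl x)), ← h,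
    Finset.mul_sum]
  symm
  refine Fintype.sum_equiv (Equiv.mulLeft x⁻¹) _ _ fun y => ?_
  simp only [Equiv.coe_mulLeft]
  have e1 : (cl (x⁻¹ * y) : Weyl P) = weylGen P i ↔ (cl (y⁻¹ * x) : Weyl P) = weylGen P i := by
    rw [show x⁻¹ * y = (y⁻¹ * x)⁻¹ by group, cl_inv, inv_eq_iff_eq_inv, hginv]
  have e2 : ((cl ((x⁻¹ * y)⁻¹ * x⁻¹) : Weyl P))⁻¹ = cl y := by
    rw [show (x⁻¹ * y)⁻¹ * x⁻¹ = y⁻¹ by group, cl_inv, inv_inv]
  simp only [e1, e2]
  split_ifs <;> ring

end CfsgLib.InvCentralizers.HeckeWeyl
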