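import Cfsg.Agent.Lib.InvCentralizers.SteinbergCount
import Cfsg.Agent.Lib.CoprimeAction.Glauberman
import Cfsg.Agent.Lib.CharTheory.FullDefect
import Cfsg.Agent.Lib.CharTheory.Degree
import Cfsg.Agent.Lib.Chevalley.Borel

/-!
The value of the Steinberg character of a finite group with a split (B,N)-pair at an element of
order prime to the characteristic.
-/

set_option autoImplicit false
set_option linter.unusedSectionVars false
set_option linter.style.haveILetI false

namespace CfsgLib.InvCentralizers.SteinbergSemisimple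

open CfsgLib.BNPair CfsgLib.InvCentralizers.SteinbergChar CfsgLib.InvCentralizers.SteinbergCount
open MulAction

variable {G : Type*} [Group G] [Finite G] {P : Cfsg.BNPair G} {J K : Set G}

/-! ### Reduced words and cells -/

theorem len_mul {x y : G} (hx : x ∈ P.N) (hy : y ∈ P.N) : len P (x * y) ≤ len P x + len P y := by
  obtain ⟨l, hl, hag⟩ := exists_isReduced hx
  obtain ⟨l', hl', hag'⟩ := exists_isReduced hy
  have := len_le (P := P) (n := x * y) (hl.1.append hl'.1) (by
    rw [List.prod_append]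
    exact (hag'.left l.prod).trans (hag.right hl.1.prod_mem hx hy))
  have h1 := hl.2
  have h2 := hl'.2
  rw [len_congr hag] at h1
  rw [len_congr hag'] at h2
  simp only [List.length_append] at this
  omega

theorem isReduced_reverse {l : List G} (h : IsReduced P l) : IsReduced P l.reverse := by
  have hw : IsWord P l.reverse := fun x hx => h.1 x (List.mem_reverse.1 hx)
  refine ⟨hw, ?_⟩
  rw [← len_congr (agree_prod_inv h.1), len_inv h.1.prod_mem, List.length_reverse]
  exact h.2

theorem red_congr' (hJ : J ⊆ P.S) (hK : K ⊆ P.S) {m n : G} (hm : m ∈ P.N) (hn : n ∈ P.N)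
    (h : Agree P m n) (hr : Red P J K m) : Red P J K n := red_congr hJ hK hm hn h hr

theorem red_inv (hK : K ⊆ P.S) {m : G} (hm : m ∈ P.N) (hr : Red P K ∅ m) : Red P ∅ K m⁻¹ := by
  refine ⟨by simp, fun s hs => ?_⟩
  have h := hr.1 s hs
  rw [len_inv hm, len_mul_right (hK hs) (P.N.inv_mem hm), inv_inv]
  exact h

/-- A reduced word in `K` followed by an element without left descents in `K`. -/
theorem len_left_mul (hK : K ⊆ P.S) {a : List G} (ha : IsReduced P a) (haK : ∀ x ∈ a, x ∈ K)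
    {lm : List G} (hlm : IsReduced P lm) (hr : Red P K ∅ lm.prod) : IsReduced P (a ++ lm) := by
  have hrev := isReduced_reverse hlm
  have h1 : Red P ∅ K lm.reverse.prod :=
    red_congr' (Set.empty_subset _) hK (P.N.inv_mem hlm.1.prod_mem) hrev.1.prod_mem
      (agree_prod_inv hlm.1) (red_inv hK hlm.1.prod_mem hr)
  have := isReduced_reverse (reduced_append hK hrev h1 (isReduced_reverse ha)
    (fun x hx => haK x (List.mem_reverse.1 hx)))
  simpa using this

theorem exists_reduced_in (hK : K ⊆ P.S) {p : G} (hp : p ∈ P.parabolic K) :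
    ∃ a, IsReduced P a ∧ (∀ x ∈ a, x ∈ K) ∧ p ∈ cell P a.prod := by
  obtain ⟨u, hu, hpu⟩ := (mem_parabolic_iff hK).1 hp
  obtain ⟨v, hsub, hv, hag⟩ := exists_reduced_sublist (word_of_subset hK hu)
  exact ⟨v, hv, fun x hx => hu x (hsub.subset hx), by rwa [cell_eq_of_agree hag]⟩

theorem mem_parabolic_of_cell {a : List G} (ha : ∀ x ∈ a, x ∈ K) {p : G}
    (hp : p ∈ cell P a.prod) : p ∈ P.parabolic K := by
  obtain ⟨x, hx, y, hy, rfl⟩ := mem_cell.1 hp
  exact Subgroup.mul_mem _ (Subgroup.mul_mem _ (B_le_parabolic K hx)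
    (Subgroup.list_prod_mem _ fun z hz => subset_parabolic K (ha z hz))) (B_le_parabolic K hy)

theorem mem_parabolic_of_mk {H : Set G} {d : List G} (hd : ∀ x ∈ d, x ∈ H) {y : G}
    (h : Agree P d.prod y) : y ∈ P.parabolic H := by
  have := Subgroup.mul_mem _ (Subgroup.list_prod_mem (P.parabolic H)
    fun z hz => subset_parabolic H (hd z hz)) (B_le_parabolic H h)
  rwa [mul_inv_cancel_left] at this

/-- Elements of a parabolic subgroup moved into another one by a minimal representative. -/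
theorem conj_data (hK : K ⊆ P.S) (hJ : J ⊆ P.S) {m : G} (hm : m ∈ P.N) (hr : Red P K J m)
    {p : G} (hp : p ∈ P.parabolic K) (hpJ : m⁻¹ * p * m ∈ P.parabolic J) :
    ∃ a b, IsReduced P a ∧ (∀ x ∈ a, x ∈ K) ∧ IsReduced P b ∧ (∀ x ∈ b, x ∈ J) ∧
      p ∈ cell P a.prod ∧ m⁻¹ * p * m ∈ cell P b.prod ∧ Agree P (a.prod * m) (m * b.prod) ∧
      a.length = b.length := by
  obtain ⟨a, ha, haK, hpa⟩ := exists_reduced_in hK hp
  obtain ⟨b, hb, hbJ, hpb⟩ := exists_reduced_in hJ hpJ
  obtain ⟨lm, hlm, hag⟩ := exists_isReduced hm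
  have hrl : Red P K J lm.prod := red_congr' hK hJ hm hlm.1.prod_mem hag.symm hr
  have h1 : IsReduced P (a ++ lm) := len_left_mul hK ha haK hlm ⟨hrl.1, by simp⟩
  have h2 : IsReduced P (lm ++ b) := reduced_append hJ hlm ⟨by simp, hrl.2⟩ hb hbJ
  have e1 : Agree P (a ++ lm).prod (a.prod * m) := by rw [List.prod_append]; exact hag.left a.prod
  have e2 : Agree P (lm ++ b).prod (m * b.prod) := by
    rw [List.prod_append]; exact hag.right hlm.1.prod_mem hm hb.1.prod_mem
  have c1 : p * m ∈ cell P (a ++ lm).prod := by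
    obtain ⟨x, hx, y, hy, hxy⟩ := mem_cell.1 hpa
    have h := left_mul_mem_cell hx (cell_mul_of_reduced h1
      (left_mul_mem_cell hy (cell_eq_of_agree hag ▸ self_mem_cell m)))
    rwa [show x * (a.prod * (y * m)) = p * m by rw [hxy]; group] at h
  have c2 : p * m ∈ cell P (lm ++ b).prod := by
    have hh : lm.prod⁻¹ * m ∈ P.B ⊓ P.N :=
      ⟨hag, P.N.mul_mem (P.N.inv_mem hlm.1.prod_mem) hm⟩
    have h := cell_mul_of_reduced h2 (left_mul_mem_cell hh.1 hpb)
    rwa [show lm.prod * (lm.prod⁻¹ * m * (m⁻¹ * p * m)) = p * m by group] at h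
  have hAB := agree_of_mem_cell h1.1.prod_mem h2.1.prod_mem c1 c2
  refine ⟨a, b, ha, haK, hb, hbJ, hpa, hpb, (e1.symm.trans hAB).trans e2, ?_⟩
  have := len_congr hAB
  rw [h1.2, h2.2, List.length_append, List.length_append] at this
  omega

theorem len_mul_minimal (hK : K ⊆ P.S) {a : List G} (ha : IsReduced P a) (haK : ∀ x ∈ a, x ∈ K)
    {m : G} (hm : m ∈ P.N) (hr : Red P K ∅ m) : len P (a.prod * m) = a.length + len P m := by
  obtain ⟨lm, hlm, hag⟩ := exists_isReduced hm
  have h1 := len_left_mul hK ha haK hlm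
    (red_congr' hK (Set.empty_subset _) hm hlm.1.prod_mem hag.symm hr)
  rw [← len_congr (show Agree P (a ++ lm).prod (a.prod * m) by
    rw [List.prod_append]; exact hag.left a.prod), h1.2, List.length_append, ← hlm.2, len_congr hag]

/-- The letters moved into `J`. -/
theorem letters_conj (hK : K ⊆ P.S) (hJ : J ⊆ P.S) {m : G} (hm : m ∈ P.N) (hr : Red P K J m) :
    ∀ a b : List G, IsReduced P a → (∀ x ∈ a, x ∈ K) → IsReduced P b → (∀ x ∈ b, x ∈ J) →
      Agree P (a.prod * m) (m * b.prod) → a.length = b.length →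
      ∀ s ∈ a, ∃ t ∈ J, Agree P (s * m) (m * t) := by
  intro a
  induction a with
  | nil => intro b _ _ _ _ _ _ s hs; simp at hs
  | cons s a ih =>
    intro b ha haK hb hbJ hag hlen
    have hs : s ∈ K := haK s (by simp)
    have hsN := s_mem_N (hK hs)
    have haK' : ∀ x ∈ a, x ∈ K := fun x hx => haK x (List.mem_cons_of_mem s hx)
    have hr' : Red P K ∅ m := ⟨hr.1, by simp⟩
    obtain ⟨lm, hlm, hagm⟩ := exists_isReduced hm
    have hrl : Red P ∅ J lm.prod :=
      red_congr' (Set.empty_subset _) hJ hm hlm.1.prod_mem hagm.symm ⟨by simp, hr.2⟩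
    have h2 : IsReduced P (lm ++ b) := reduced_append hJ hlm hrl hb hbJ
    have e2 : Agree P (lm ++ b).prod (m * b.prod) := by
      rw [List.prod_append]; exact hagm.right hlm.1.prod_mem hm hb.1.prod_mem
    have hN1 : a.prod * m ∈ P.N := P.N.mul_mem ha.tail.1.prod_mem hm
    have hag' : Agree P (s * (a.prod * m)) (m * b.prod) := by
      simpa [List.prod_cons, mul_assoc] using hag
    -- `s` is a left descent of `lm ++ b`
    have hdown : Agree P (s * (lm ++ b).prod) (a.prod * m) :=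
      ((e2.trans hag'.symm).left s).trans (agree_s_s (hK hs) hN1)
    have hl1 := len_mul_minimal hK ha.tail haK' hm hr'
    have hlmm : lm.length = len P m := by rw [← hlm.2, len_congr hagm]
    have hlt : len P (s * (lm ++ b).prod) < (lm ++ b).length := by
      rw [len_congr hdown, hl1, List.length_append, ← hlen, List.length_cons]
      omega
    obtain ⟨j, hj, hja⟩ := exchange (hK hs) h2.1 hlt h2.2
    rcases lt_or_ge j lm.length with hjl | hjl
    · exfalso
      rw [List.eraseIdx_append_of_lt_length hjl, List.prod_append, List.prod_append] at hja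
      have hwe : IsWord P (lm.eraseIdx j) := hlm.1.sublist (List.eraseIdx_sublist ..)
      have h3 := hja.right (P.N.mul_mem hsN (P.N.mul_mem hlm.1.prod_mem hb.1.prod_mem))
        (P.N.mul_mem hwe.prod_mem hb.1.prod_mem) (P.N.inv_mem hb.1.prod_mem)
      have h4 : Agree P (lm.eraseIdx j).prod (s * m) := by
        refine Agree.trans ?_ (hagm.left s)
        simpa [mul_assoc] using h3.symm
      have h5 := len_le (P := P) hwe h4
      rw [List.length_eraseIdx_of_lt hjl] at h5
      have := hr.1 s hs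
      omega
    · rw [List.eraseIdx_append_of_length_le hjl] at hja
      set b' := b.eraseIdx (j - lm.length) with hb'def
      have hb'J : ∀ x ∈ b', x ∈ J := fun x hx => hbJ x ((List.eraseIdx_sublist ..).subset hx)
      have hjb : j - lm.length < b.length := by
        rw [List.length_append] at hj; omega
      have hb'len : b'.length = a.length := by
        rw [hb'def, List.length_eraseIdx_of_lt hjb, ← hlen, List.length_cons]; omega
      have hw' : IsWord P (lm ++ b') := hlm.1.append (word_of_subset hJ hb'J)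
      have hA : Agree P (a.prod * m) (m * b'.prod) := by
        refine (hdown.symm.trans hja).trans ?_
        rw [List.prod_append]
        exact hagm.right hlm.1.prod_mem hm (word_of_subset hJ hb'J).prod_mem
      have hb'red : IsReduced P b' := by
        refine red_right (l := lm) ⟨hw', le_antisymm (len_le hw' (Agree.refl _)) ?_⟩
        rw [len_congr (show Agree P (lm ++ b').prod (a.prod * m) from
          (hja.symm.trans hdown)), hl1, List.length_append, hb'len]
        omega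
      intro x hx
      rcases List.mem_cons.1 hx with rfl | hx
      · -- the first letter
        have hwbJ : ∀ y ∈ b ++ b'.reverse, y ∈ J := fun y hy => by
          rcases List.mem_append.1 hy with hy | hy
          · exact hbJ y hy
          · exact hb'J y (List.mem_reverse.1 hy)
        obtain ⟨v, hsub, hv, hvag⟩ := exists_reduced_sublist (word_of_subset hJ hwbJ)
        have hvJ : ∀ y ∈ v, y ∈ J := fun y hy => hwbJ y (hsub.subset hy)
        have hb'N := (word_of_subset (P := P) hJ hb'J).prod_mem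
        have h3 : Agree P (x * m) (m * v.prod) := by
          have hx' : Agree P (x * (m * b'.prod)) (m * b.prod) := (hA.symm.left x).trans hag'
          have h5 := hx'.right (P.N.mul_mem hsN (P.N.mul_mem hm hb'N))
            (P.N.mul_mem hm hb.1.prod_mem) (P.N.inv_mem hb'N)
          have h6 : Agree P (x * m) (m * (b.prod * b'.prod⁻¹)) := by simpa [mul_assoc] using h5
          refine h6.trans ?_
          refine Agree.trans ?_ (hvag.symm.left m)
          rw [List.prod_append]
          exact (((agree_prod_inv hb'red.1).left b.prod).left m)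
        obtain ⟨lm', hlm', hagm'⟩ := exists_isReduced hm
        have h7 := (reduced_append hJ hlm'
          (red_congr' (Set.empty_subset _) hJ hm hlm'.1.prod_mem hagm'.symm ⟨by simp, hr.2⟩) hv hvJ).2
        rw [List.prod_append, len_congr (hagm'.right hlm'.1.prod_mem hm hv.1.prod_mem),
          ← len_congr h3, List.length_append, ← hlm'.2, len_congr hagm'] at h7
        have h8 := hr.1 x hs
        have h9 := len_mul_le (P := P) (hK hs) hm
        obtain ⟨t, rfl⟩ : ∃ t, v = [t] := List.length_eq_one_iff.1 (by omega)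
        exact ⟨t, hvJ t (by simp), by simpa using h3⟩
      · exact ih b' ha.tail haK' hb'red hb'J hA hb'len.symm x hx

/-- The generators into which `m` moves `K`. -/
def J0 (P : Cfsg.BNPair G) (K : Set G) (m : G) : Set G :=
  {t | t ∈ P.S ∧ ∃ s ∈ K, Agree P (s * m) (m * t)}

theorem exists_word_J0 (hK : K ⊆ P.S) {m : G} (hm : m ∈ P.N)
    (hn : ∀ s ∈ K, ∃ t ∈ P.S, Agree P (s * m) (m * t)) :
    ∀ a : List G, (∀ x ∈ a, x ∈ K) →
      ∃ d : List G, (∀ x ∈ d, x ∈ J0 P K m) ∧ Agree P (a.prod * m) (m * d.prod) := by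
  intro a
  induction a with
  | nil => intro _; exact ⟨[], by simp, by simpa using Agree.refl m⟩
  | cons s a ih =>
    intro ha
    obtain ⟨d, hd, hag⟩ := ih fun x hx => ha x (List.mem_cons_of_mem s hx)
    have hs := ha s (by simp)
    obtain ⟨t, ht, hst⟩ := hn s hs
    refine ⟨t :: d, ?_, ?_⟩
    · intro x hx
      rcases List.mem_cons.1 hx with rfl | hx
      · exact ⟨ht, s, hs, hst⟩
      · exact hd x hx
    · rw [List.prod_cons, List.prod_cons, mul_assoc, ← mul_assoc m]
      refine (hag.left s).trans ?_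
      rw [← mul_assoc s m]
      exact hst.right (P.N.mul_mem (s_mem_N (hK hs)) hm) (P.N.mul_mem hm (s_mem_N ht))
        (word_of_subset (fun x hx => (hx : x ∈ J0 P K m).1) hd).prod_mem

theorem stab_J0 (hK : K ⊆ P.S) (hJ : J ⊆ P.S) {m : G} (hm : m ∈ P.N) (hr : Red P K J m)
    (hn : ∀ s ∈ K, ∃ t ∈ P.S, Agree P (s * m) (m * t))
    {p : G} (hp : p ∈ P.parabolic K) (hpJ : m⁻¹ * p * m ∈ P.parabolic J) :
    m⁻¹ * p * m ∈ P.parabolic (J0 P K m) := by
  obtain ⟨a, b, ha, haK, hb, hbJ, -, hpb, hag, -⟩ := conj_data hK hJ hm hr hp hpJ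
  obtain ⟨d, hd, hag'⟩ := exists_word_J0 hK hm hn a haK
  have := agree_of_left (hag.symm.trans hag')
  rw [cell_eq_of_agree this] at hpb
  exact mem_parabolic_of_cell hd hpb

theorem inDC_of_mem (hK : K ⊆ P.S) (hJ : J ⊆ P.S) {m m' k k' : G} (hm : m ∈ P.N) (hm' : m' ∈ P.N)
    (hk : k ∈ P.parabolic K) (hk' : k' ∈ P.parabolic K)
    (h : (k * m)⁻¹ * (k' * m') ∈ P.parabolic J) : InDC P K J m m' := by
  obtain ⟨u, hu, h1⟩ := parabolic_mul_cell hK (Subgroup.mul_mem _ (Subgroup.inv_mem _ hk') hk) hm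
    (self_mem_cell m)
  have hwu := word_of_subset (P := P) hK hu
  have h' : ((k'⁻¹ * k * m))⁻¹ * m' ∈ P.parabolic J := by
    rw [show (k'⁻¹ * k * m)⁻¹ * m' = (k * m)⁻¹ * (k' * m') by group]; exact h
  obtain ⟨v, hv, h2⟩ := cell_mul_parabolic hJ h' (P.N.mul_mem hwu.prod_mem hm) h1
  rw [mul_inv_cancel_left] at h2
  exact ⟨u, v, hu, hv, agree_of_mem_cell (P.N.mul_mem (P.N.mul_mem hwu.prod_mem hm)
    (word_of_subset hJ hv).prod_mem) hm' h2 (self_mem_cell _)⟩

/-! ### The alternating sum -/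

theorem interval_sum {α : Type*} [DecidableEq α] {S A Z : Finset α} (hA : A ⊆ S) :
    ∑ J ∈ S.powerset, (if Z ⊆ J ∧ J ⊆ A then (-1 : ℂ) ^ J.card else 0) =
      if Z = A then (-1 : ℂ) ^ A.card else 0 := by
  by_cases hZA : Z ⊆ A
  · rw [← Finset.sum_filter]
    have h1 : ∑ J ∈ S.powerset.filter (fun J => Z ⊆ J ∧ J ⊆ A), (-1 : ℂ) ^ J.card =
        ∑ J' ∈ (A \ Z).powerset, (-1 : ℂ) ^ Z.card * (((-1 : ℤ) ^ J'.card : ℤ) : ℂ) := by
      refine Finset.sum_nbij' (fun J => J \ Z) (fun J' => Z ∪ J') ?_ ?_ ?_ ?_ ?_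
      · intro J hJ
        simp only [Finset.mem_filter, Finset.mem_powerset] at hJ ⊢
        exact Finset.sdiff_subset_sdiff hJ.2.2 le_rfl
      · intro J hJ
        simp only [Finset.mem_filter, Finset.mem_powerset] at hJ ⊢
        have : Z ∪ J ⊆ A := Finset.union_subset hZA (hJ.trans Finset.sdiff_subset)
        exact ⟨this.trans hA, Finset.subset_union_left, this⟩
      · intro J hJ
        simp only [Finset.mem_filter] at hJ
        exact Finset.union_sdiff_of_subset hJ.2.1
      · intro J hJ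
        simp only [Finset.mem_powerset] at hJ
        rw [Finset.union_sdiff_left]
        exact Finset.sdiff_eq_self_of_disjoint (Finset.disjoint_of_subset_left hJ Finset.sdiff_disjoint)
      · intro J hJ
        simp only [Finset.mem_filter] at hJ
        rw [Int.cast_pow, Int.cast_neg, Int.cast_one, ← pow_add, add_comm,
          Finset.card_sdiff_add_card_eq_card hJ.2.1]
    rw [h1, ← Finset.mul_sum, ← Int.cast_sum, Finset.sum_powerset_neg_one_pow_card]
    by_cases hAZ : A \ Z = ∅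
    · have e : Z = A := Finset.Subset.antisymm hZA (Finset.sdiff_eq_empty_iff_subset.1 hAZ)
      simp [e]
    · rw [if_neg hAZ, if_neg fun e => hAZ (by rw [e, Finset.sdiff_self]), Int.cast_zero, mul_zero]
  · rw [if_neg fun (e : Z = A) => hZA e.le]
    exact Finset.sum_eq_zero fun J _ => if_neg fun h => hZA (h.1.trans h.2)

theorem len_top_left {w : G} (hw : w ∈ P.N) (hl : LeftTop P w) {x : G} (hx : x ∈ P.N) :
    len P x + len P (x⁻¹ * w) = len P w := by
  obtain ⟨u, hu, hag⟩ := exists_isReduced hx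
  obtain ⟨a, hua, haga⟩ := exists_extension hw hl hu
  have hau := red_right hua
  have hax : Agree P a.prod (x⁻¹ * w) := by
    refine agree_of_left (k := x) ?_
    rw [mul_inv_cancel_left]
    refine Agree.trans ?_ haga
    rw [List.prod_append]
    exact hag.symm.right hx hu.1.prod_mem hau.1.prod_mem
  have h := hua.2
  rw [len_congr haga, List.length_append, ← hu.2, ← hau.2, len_congr hag, len_congr hax] at h
  omega

theorem len_top_in (hK : K ⊆ P.S) {c : G} (hc : c ∈ P.N) (hl : ∀ s ∈ K, len P (s * c) < len P c)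
    {x : G} (hx : x ∈ P.N) (hxK : x ∈ P.parabolic K) :
    len P x + len P (x⁻¹ * c) = len P c := by
  obtain ⟨u, hu, hag, huK⟩ := exists_word_parabolic hK hx hxK
  obtain ⟨a, hua, haga⟩ := exists_extension_of hc hu fun s hs => hl s (huK s hs)
  have hau := red_right hua
  have hax : Agree P a.prod (x⁻¹ * c) := by
    refine agree_of_left (k := x) ?_
    rw [mul_inv_cancel_left]
    refine Agree.trans ?_ haga
    rw [List.prod_append]
    exact hag.symm.right hx hu.1.prod_mem hau.1.prod_mem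
  have h := hua.2
  rw [len_congr haga, List.length_append, ← hu.2, ← hau.2, len_congr hag, len_congr hax] at h
  omega

/-- The data attached to the longest elements: the only cell that contributes. -/
theorem exists_special (hK : K ⊆ P.S) :
    ∃ m ∈ P.N, Red P K ∅ m ∧ (∀ s ∈ K, ∃ t ∈ P.S, Agree P (s * m) (m * t)) ∧
      (∀ t ∈ P.S, len P m < len P (m * t) ↔ t ∈ J0 P K m) := by
  obtain ⟨w, hw, hwl, hwr⟩ := exists_top (P := P)
  obtain ⟨c, hc, hcK, hcr, hcl⟩ := exists_top_in (P := P) hK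
  have hm : c⁻¹ * w ∈ P.N := P.N.mul_mem (P.N.inv_mem hc) hw
  have hlm := len_top_left hw hwl hc
  have hred : Red P K ∅ (c⁻¹ * w) := by
    refine ⟨fun s hs => ?_, by simp⟩
    have hsN := s_mem_N (hK hs)
    have h1 := len_top_left hw hwl (P.N.mul_mem hc (P.N.inv_mem hsN))
    rw [_root_.mul_inv_rev, inv_inv, mul_assoc] at h1
    have h2 : len P (c * s⁻¹) = len P (c * s) := len_congr (agree_right_inv (hK hs))
    have := hcr s hs
    omega
  have hnorm : ∀ s ∈ K, ∃ t ∈ P.S, Agree P (s * (c⁻¹ * w)) (c⁻¹ * w * t) := by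
    intro s hs
    have hsN := s_mem_N (hK hs)
    have hsP : s ∈ P.parabolic K := subset_parabolic K hs
    set y := c * s * c⁻¹ with hy
    have hyN : y ∈ P.N := P.N.mul_mem (P.N.mul_mem hc hsN) (P.N.inv_mem hc)
    have hyK : y ∈ P.parabolic K :=
      Subgroup.mul_mem _ (Subgroup.mul_mem _ hcK hsP) (Subgroup.inv_mem _ hcK)
    have h1 := len_top_in hK hc hcl hyN hyK
    rw [show y⁻¹ * c = c * s⁻¹ by rw [hy]; group, len_congr (agree_right_inv (hK hs))] at h1
    have h2 := len_top_in hK hc hcl (P.N.mul_mem hc hsN) (Subgroup.mul_mem _ hcK hsP)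
    rw [_root_.mul_inv_rev, mul_assoc, inv_mul_cancel, mul_one,
      len_inv hsN, len_s (hK hs)] at h2
    have hy1 : len P y = 1 := by omega
    set z := w⁻¹ * y * w with hz
    have hzN : z ∈ P.N := P.N.mul_mem (P.N.mul_mem (P.N.inv_mem hw) hyN) hw
    have h3 := len_top_left (P.N.inv_mem hw) (leftTop_inv hw hwr) (P.N.inv_mem hzN)
    rw [inv_inv, show z * w⁻¹ = w⁻¹ * y by rw [hz]; group, len_inv hw, len_inv hzN,
      show w⁻¹ * y = (y⁻¹ * w)⁻¹ by group, len_inv (P.N.mul_mem (P.N.inv_mem hyN) hw)] at h3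
    have h4 := len_top_left hw hwl hyN
    obtain ⟨l, hl, hag⟩ := exists_isReduced hzN
    obtain ⟨t, rfl⟩ : ∃ t, l = [t] := List.length_eq_one_iff.1 (by
      rw [← hl.2, len_congr hag]; omega)
    refine ⟨t, hl.1 t (by simp), ?_⟩
    have := (hag.symm.left (c⁻¹ * w))
    rw [List.prod_singleton] at this
    rwa [show c⁻¹ * w * z = s * (c⁻¹ * w) by rw [hz, hy]; group] at this
  refine ⟨c⁻¹ * w, hm, hred, hnorm, fun t ht => ⟨fun hup => ?_, ?_⟩⟩
  · have htN := s_mem_N ht
    obtain ⟨lm, hlm', hagm⟩ := exists_isReduced hm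
    by_cases hex : ∃ s ∈ K, len P (s * (c⁻¹ * w * t)) < len P (c⁻¹ * w * t)
    · obtain ⟨s, hs, hlt⟩ := hex
      have hsN := s_mem_N (hK hs)
      have e : Agree P (lm ++ [t]).prod (c⁻¹ * w * t) := by
        rw [List.prod_append, List.prod_singleton]; exact hagm.right hlm'.1.prod_mem hm htN
      have hle := len_mul hm htN
      rw [len_s ht] at hle
      have hlw : IsWord P (lm ++ [t]) := hlm'.1.append (by simpa [IsWord] using ht)
      have hlr : IsReduced P (lm ++ [t]) := by
        refine ⟨hlw, ?_⟩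
        rw [len_congr e, List.length_append, ← hlm'.2, len_congr hagm, List.length_singleton]
        omega
      obtain ⟨j, hj, hja⟩ := exchange (hK hs) hlw
        (by rw [← hlr.2, len_congr e, len_congr (e.left s)]; exact hlt) hlr.2
      rcases lt_or_ge j lm.length with hjl | hjl
      · exfalso
        rw [List.eraseIdx_append_of_lt_length hjl, List.prod_append, List.prod_append,
          List.prod_singleton] at hja
        have hwe : IsWord P (lm.eraseIdx j) := hlm'.1.sublist (List.eraseIdx_sublist ..)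
        have h3 := hja.right (P.N.mul_mem hsN (P.N.mul_mem hlm'.1.prod_mem htN))
          (P.N.mul_mem hwe.prod_mem htN) (P.N.inv_mem htN)
        have h4 : Agree P (lm.eraseIdx j).prod (s * (c⁻¹ * w)) := by
          refine Agree.trans ?_ (hagm.left s)
          simpa [mul_assoc] using h3.symm
        have h5 := len_le (P := P) hwe h4
        rw [List.length_eraseIdx_of_lt hjl, ← hlm'.2, len_congr hagm] at h5
        have := hred.1 s hs
        omega
      · have hjl' : j = lm.length := by simp at hj; omega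
        subst hjl'
        rw [List.eraseIdx_append_of_length_le le_rfl] at hja
        simp only [Nat.sub_self, List.eraseIdx_zero, List.tail_cons, List.append_nil] at hja
        refine ⟨ht, s, hs, ?_⟩
        have h3 := (((e.symm.left s).trans hja).trans hagm).right
          (P.N.mul_mem hsN (P.N.mul_mem hm htN)) hm htN
        refine Agree.trans ?_ h3
        have h6 : t * t ∈ P.B := P.sq_mem t ht
        show _⁻¹ * _ ∈ P.B
        simpa [mul_assoc] using h6
    · exfalso
      push Not at hex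
      obtain ⟨lc, hlc, hagc, hlcK⟩ := exists_word_parabolic hK hc hcK
      have hr : Red P K ∅ (c⁻¹ * w * t) := ⟨fun s hs => lt_of_le_of_ne (hex s hs)
        (len_mul_ne (hK hs) (P.N.mul_mem hm htN)).symm, by simp⟩
      have h1 := len_mul_minimal hK hlc hlcK (P.N.mul_mem hm htN) hr
      rw [len_congr (hagc.right hlc.1.prod_mem hc (P.N.mul_mem hm htN)), ← hlc.2, len_congr hagc,
        show c * (c⁻¹ * w * t) = w * t by group] at h1
      have := hwr t ht
      omega
  · rintro ⟨-, s, hs, hst⟩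
    rw [← len_congr hst]
    exact hred.1 s hs

theorem special_unique (hK : K ⊆ P.S) {m : G} (hm : m ∈ P.N) (hr : Red P K ∅ m)
    (hasc : ∀ t ∈ P.S, len P m < len P (m * t) ↔ t ∈ J0 P K m)
    {c w : G} (hc : c ∈ P.N) (hcK : c ∈ P.parabolic K) (hcr : Top P K c)
    (hw : w ∈ P.N) (hwr : RightTop P w) : Agree P (c * m) w := by
  refine rightTop_unique (P.N.mul_mem hc hm) hw (fun t ht => ?_) hwr
  obtain ⟨lc, hlc, hagc, hlcK⟩ := exists_word_parabolic hK hc hcK
  have h1 := len_mul_minimal hK hlc hlcK hm hr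
  rw [len_congr (hagc.right hlc.1.prod_mem hc hm), ← hlc.2, len_congr hagc] at h1
  by_cases hup : len P m < len P (m * t)
  · obtain ⟨-, s, hs, hst⟩ := (hasc t ht).1 hup
    rw [mul_assoc, ← len_congr (hst.left c), ← mul_assoc]
    have := len_mul (P.N.mul_mem hc (s_mem_N (hK hs))) hm
    have := hcr s hs
    omega
  · rw [mul_assoc]
    have := len_mul hc (P.N.mul_mem hm (s_mem_N ht))
    have := len_mul_right_ne ht hm
    omega

/-- The fixed cosets in one orbit. -/
noncomputable def orbitFix (P : Cfsg.BNPair G) (K : Set G) (g m : G) : ℕ :=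
  Nat.card {d : G ⧸ P.parabolic (J0 P K m) // g • d = d ∧ ∃ k ∈ P.parabolic K, d = ((k * m : G) : G ⧸ _)}

theorem steinberg_eq_orbitFix {Sf : Finset G} (hSf : ↑Sf = P.S) (hK : K ⊆ P.S) {g : G}
    (hg : g ∈ P.parabolic K)
    (hmin : ∀ K' ⊂ K, ∀ x : G, x⁻¹ * g * x ∉ P.parabolic K') :
    ∃ m ∈ P.N, Red P K ∅ m ∧ (∀ s ∈ K, ∃ t ∈ P.S, Agree P (s * m) (m * t)) ∧
      (∀ t ∈ P.S, len P m < len P (m * t) ↔ t ∈ J0 P K m) ∧
      ∃ e : ℕ, steinberg P Sf g = (-1 : ℂ) ^ e * (orbitFix P K g m : ℂ) := by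
  classical
  obtain ⟨m₀, hm₀, hred₀, hnorm₀, hasc₀⟩ := exists_special (P := P) hK
  let C₀ : Cells P := ⟨cell P m₀, m₀, hm₀, rfl⟩
  have hag₀ : Agree P C₀.rep m₀ := agree_of_cell_eq C₀.rep_mem hm₀ C₀.cell_rep
  let Zf : Cells P → Finset G := fun C => Sf.filter fun t => t ∈ J0 P K C.rep
  let Af : Cells P → Finset G := fun C => Sf.filter fun t => len P C.rep < len P (C.rep * t)
  let ok : Cells P → Prop := fun C =>
    Red P K ∅ C.rep ∧ ∀ s ∈ K, ∃ t ∈ P.S, Agree P (s * C.rep) (C.rep * t)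
  have hS : ∀ x, x ∈ Sf ↔ x ∈ P.S := fun x => by rw [← hSf]; rfl
  have hfix : ∀ J ∈ Sf.powerset,
      Cfsg.fixedPointCharacter (P.parabolic (↑J : Set G)) g =
        ∑ᶠ C : Cells P, if ok C ∧ Zf C ⊆ J ∧ J ⊆ Af C then (orbitFix P K g C.rep : ℂ) else 0 := by
    intro J hJ
    have hJS : (↑J : Set G) ⊆ P.S := fun x hx => (hS x).1 (Finset.mem_powerset.1 hJ hx)
    haveI := Fintype.ofFinite (Cells P)
    have hmem : ∀ C : {C : Cells P // ok C ∧ Zf C ⊆ J ∧ J ⊆ Af C}, J0 P K C.1.rep ⊆ ↑J ∧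
        Red P K ↑J C.1.rep := fun C =>
      ⟨fun t ht => C.2.2.1 (Finset.mem_filter.2 ⟨(hS t).2 ht.1, ht⟩),
        C.2.1.1.1, fun t ht => (Finset.mem_filter.1 (C.2.2.2 ht)).2⟩
    rw [Cfsg.fixedPointCharacter, finsum_eq_sum_of_fintype, ← Finset.sum_filter,
      Finset.sum_subtype (F := inferInstance) _ (p := fun C => ok C ∧ Zf C ⊆ J ∧ J ⊆ Af C)
        (fun C => by simp) (fun C => (orbitFix P K g C.rep : ℂ)), ← Nat.cast_sum, Nat.cast_inj]
    simp only [orbitFix]
    rw [← Nat.card_sigma]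
    symm
    refine Nat.card_eq_of_bijective (fun z => ⟨((z.2.1.out : G) : G ⧸ P.parabolic (↑J : Set G)), ?_⟩)
      ⟨?_, ?_⟩
    · rw [MulAction.mem_fixedBy, MulAction.Quotient.smul_coe, smul_eq_mul]
      have h := z.2.2.1
      rw [← QuotientGroup.out_eq' z.2.1, MulAction.Quotient.smul_coe, smul_eq_mul] at h
      exact QuotientGroup.eq.2 (parabolic_mono (hmem z.1).1 (QuotientGroup.eq.1 h))
    · rintro ⟨⟨C, hC⟩, d, hd, k, hk, hdk⟩ ⟨⟨C', hC'⟩, d', hd', k', hk', hdk'⟩ e
      have e0 : ((d.out : G) : G ⧸ P.parabolic (↑J : Set G)) = (d'.out : G) := congrArg Subtype.val e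
      have h1 : (d.out : G)⁻¹ * (k * C.rep) ∈ P.parabolic (↑J : Set G) := by
        refine parabolic_mono (hmem ⟨C, hC⟩).1 (QuotientGroup.eq.1 ?_)
        rw [QuotientGroup.out_eq', hdk]
      have h2 : (d'.out : G)⁻¹ * (k' * C'.rep) ∈ P.parabolic (↑J : Set G) := by
        refine parabolic_mono (hmem ⟨C', hC'⟩).1 (QuotientGroup.eq.1 ?_)
        rw [QuotientGroup.out_eq', hdk']
      have h3 : (k * C.rep)⁻¹ * (k' * C'.rep) ∈ P.parabolic (↑J : Set G) := by
        have := Subgroup.mul_mem _ (Subgroup.mul_mem _ (Subgroup.inv_mem _ h1)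
          (QuotientGroup.eq.1 e0)) h2
        simpa [mul_assoc] using this
      have hCC : C = C' := by
        refine Subtype.ext ?_
        rw [← C.cell_rep, ← C'.cell_rep]
        exact cell_eq_of_agree (red_unique hK hJS C.rep_mem C'.rep_mem (hmem ⟨C, hC⟩).2
          (hmem ⟨C', hC'⟩).2 (inDC_of_mem hK hJS C.rep_mem C'.rep_mem hk hk' h3))
      subst hCC
      have hdd : d = d' := by
        rw [hdk, hdk', QuotientGroup.eq]
        rw [show (k * C.rep)⁻¹ * (k' * C.rep) = C.rep⁻¹ * (k⁻¹ * k') * C.rep by group] at h3 ⊢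
        exact stab_J0 hK hJS C.rep_mem (hmem ⟨C, hC⟩).2 hC.1.2
          (Subgroup.mul_mem _ (Subgroup.inv_mem _ hk) hk') h3
      subst hdd
      rfl
    · rintro ⟨c, hc⟩
      rw [MulAction.mem_fixedBy] at hc
      obtain ⟨x, rfl⟩ := QuotientGroup.mk_surjective c
      obtain ⟨n, hn, hx⟩ := exists_mem_cell (P := P) x
      obtain ⟨a, ha, b, hb, rfl⟩ := mem_cell.1 hx
      obtain ⟨m, hm, hd, hr, -⟩ := exists_red hK hJS hn
      obtain ⟨u, v, hu, hv, hag⟩ := InDC.symm hK hJS hn hm hd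
      let C : Cells P := ⟨cell P m, m, hm, rfl⟩
      have hCm : Agree P C.rep m := agree_of_cell_eq C.rep_mem hm C.cell_rep
      have hCr : Red P K ↑J C.rep := red_congr hK hJS hm C.rep_mem hCm.symm hr
      set k := a * u.prod with hkdef
      have hk : k ∈ P.parabolic K := Subgroup.mul_mem _ (B_le_parabolic K ha)
        (Subgroup.list_prod_mem _ fun y hy => subset_parabolic K (hu y hy))
      have hx' : (k * C.rep)⁻¹ * (a * n * b) ∈ P.parabolic (↑J : Set G) := by
        have hag' : (u.prod * m * v.prod)⁻¹ * n ∈ P.B := hag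
        have e : (k * C.rep)⁻¹ * (a * n * b) =
            (C.rep⁻¹ * m) * v.prod * ((u.prod * m * v.prod)⁻¹ * n) * b := by rw [hkdef]; group
        rw [e]
        exact Subgroup.mul_mem _ (Subgroup.mul_mem _ (Subgroup.mul_mem _ (B_le_parabolic _ hCm)
          (Subgroup.list_prod_mem _ fun y hy => subset_parabolic _ (hv y hy)))
          (B_le_parabolic _ hag')) (B_le_parabolic _ hb)
      have hfixk : C.rep⁻¹ * (k⁻¹ * g * k) * C.rep ∈ P.parabolic (↑J : Set G) := by
        rw [MulAction.Quotient.smul_coe, smul_eq_mul, QuotientGroup.eq] at hc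
        have := Subgroup.mul_mem _ (Subgroup.mul_mem _ hx' (Subgroup.inv_mem _ hc))
          (Subgroup.inv_mem _ hx')
        simpa [mul_assoc] using this
      have hgk : k⁻¹ * g * k ∈ P.parabolic K :=
        Subgroup.mul_mem _ (Subgroup.mul_mem _ (Subgroup.inv_mem _ hk) hg) hk
      obtain ⟨a', b', ha', ha'K, hb', hb'J, hpa, -, hagab, hlen⟩ :=
        conj_data hK hJS C.rep_mem hCr hgk hfixk
      have hlet := letters_conj hK hJS C.rep_mem hCr a' b' ha' ha'K hb' hb'J hagab hlen
      have hall : ∀ s ∈ K, ∃ t ∈ (↑J : Set G), Agree P (s * C.rep) (C.rep * t) := by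
        by_contra hcon
        refine hmin {s ∈ K | ∃ t ∈ (↑J : Set G), Agree P (s * C.rep) (C.rep * t)} ?_ k ?_
        · exact (Set.ssubset_iff_of_subset fun s hs => hs.1).2 (by
            push Not at hcon
            obtain ⟨s, hs, hs'⟩ := hcon
            exact ⟨s, hs, fun h => by obtain ⟨t, ht, hst⟩ := h.2; exact hs' t ht hst⟩)
        · refine mem_parabolic_of_cell ?_ hpa
          exact fun s hs => ⟨ha'K s hs, hlet s hs⟩
      have hnC : ∀ s ∈ K, ∃ t ∈ P.S, Agree P (s * C.rep) (C.rep * t) := fun s hs =>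
        let ⟨t, ht, h⟩ := hall s hs; ⟨t, hJS ht, h⟩
      have hZJ : Zf C ⊆ J := by
        intro t ht
        obtain ⟨-, htS, s, hs, hst⟩ := Finset.mem_filter.1 ht
        obtain ⟨t', ht', hst'⟩ := hall s hs
        rwa [eq_of_agree htS (hJS ht') (agree_of_left (hst.symm.trans hst'))]
      have hJA : J ⊆ Af C := fun t ht =>
        Finset.mem_filter.2 ⟨Finset.mem_powerset.1 hJ ht, hCr.2 t ht⟩
      have hJ0 : J0 P K C.rep ⊆ ↑J := fun t ht => hZJ (Finset.mem_filter.2 ⟨(hS t).2 ht.1, ht⟩)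
      have hgfix : g • ((k * C.rep : G) : G ⧸ P.parabolic (J0 P K C.rep)) =
          ((k * C.rep : G) : G ⧸ _) := by
        rw [smul_eq_iff, show (k * C.rep)⁻¹ * g * (k * C.rep) = C.rep⁻¹ * (k⁻¹ * g * k) * C.rep by group]
        exact stab_J0 hK hJS C.rep_mem hCr hnC hgk hfixk
      refine ⟨⟨⟨C, ⟨⟨hCr.1, by simp⟩, hnC⟩, hZJ, hJA⟩, ⟨((k * C.rep : G) : G ⧸ _), hgfix, k, hk, rfl⟩⟩,
        Subtype.ext ?_⟩
      show ((((k * C.rep : G) : G ⧸ P.parabolic (J0 P K C.rep)).out : G) : G ⧸ P.parabolic (↑J : Set G))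
        = ((a * n * b : G) : G ⧸ _)
      refine QuotientGroup.eq.2 ?_
      have h1 := parabolic_mono hJ0 (QuotientGroup.eq.1
        (QuotientGroup.out_eq' ((k * C.rep : G) : G ⧸ P.parabolic (J0 P K C.rep))))
      have := Subgroup.mul_mem _ h1 hx'
      simpa [mul_assoc] using this
  haveI := Fintype.ofFinite (Cells P)
  have hsum : steinberg P Sf g = ∑ C : Cells P,
      if ok C ∧ Zf C = Af C then (-1 : ℂ) ^ (Af C).card * (orbitFix P K g C.rep : ℂ) else 0 := by
    rw [steinberg, Finset.sum_congr rfl (g := fun J => ∑ C : Cells P,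
      (-1 : ℂ) ^ J.card * if ok C ∧ Zf C ⊆ J ∧ J ⊆ Af C then (orbitFix P K g C.rep : ℂ) else 0)
      (fun J hJ => by rw [hfix J hJ, finsum_eq_sum_of_fintype, Finset.mul_sum]), Finset.sum_comm]
    refine Finset.sum_congr rfl fun C _ => ?_
    by_cases hok : ok C
    · simp only [hok, true_and]
      rw [show (if Zf C = Af C then (-1 : ℂ) ^ (Af C).card * (orbitFix P K g C.rep : ℂ) else 0) =
        (if Zf C = Af C then (-1 : ℂ) ^ (Af C).card else 0) * (orbitFix P K g C.rep : ℂ) by
          split_ifs <;> simp, ← interval_sum (S := Sf) (Finset.filter_subset _ _), Finset.sum_mul]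
      refine Finset.sum_congr rfl fun J _ => ?_
      split_ifs <;> simp
    · simp [hok]
  have hC₀ok : ok C₀ ∧ Zf C₀ = Af C₀ := by
    have hrep : Red P K ∅ C₀.rep := red_congr hK (Set.empty_subset _) hm₀ C₀.rep_mem hag₀.symm hred₀
    have hJ0 : J0 P K C₀.rep = J0 P K m₀ := by
      ext t
      refine and_congr_right fun ht => exists_congr fun s => and_congr_right fun hs => ?_
      have e1 := hag₀.left s
      have e2 := hag₀.right C₀.rep_mem hm₀ (s_mem_N ht)
      exact ⟨fun h => (e1.symm.trans h).trans e2, fun h => (e1.trans h).trans e2.symm⟩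
    refine ⟨⟨hrep, fun s hs => ?_⟩, ?_⟩
    · obtain ⟨t, ht, hst⟩ := hnorm₀ s hs
      exact ⟨t, ht, ((hag₀.left s).trans hst).trans (hag₀.right C₀.rep_mem hm₀ (s_mem_N ht)).symm⟩
    · refine Finset.filter_congr fun t ht => ?_
      have htS := (hS t).1 ht
      rw [hJ0, ← hasc₀ t htS, len_congr hag₀, len_congr (hag₀.right C₀.rep_mem hm₀ (s_mem_N htS))]
  have huniq : ∀ C : Cells P, ok C ∧ Zf C = Af C → C = C₀ := by
    intro C hC
    obtain ⟨w, hw, -, hwr⟩ := exists_top (P := P)
    obtain ⟨c, hc, hcK, hcr, -⟩ := exists_top_in (P := P) hK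
    have key : ∀ D : Cells P, ok D ∧ Zf D = Af D → Agree P (c * D.rep) w := by
      intro D hD
      refine special_unique hK D.rep_mem hD.1.1 (fun t ht => ?_) hc hcK hcr hw hwr
      have := Finset.ext_iff.1 hD.2 t
      simp only [Zf, Af, Finset.mem_filter, (hS t).2 ht, true_and] at this
      exact this.symm
    refine Subtype.ext ?_
    rw [← C.cell_rep, ← C₀.cell_rep]
    exact cell_eq_of_agree (agree_of_left ((key C hC).trans (key C₀ hC₀ok).symm))
  refine ⟨C₀.rep, C₀.rep_mem, hC₀ok.1.1, hC₀ok.1.2, fun t ht => ?_, (Af C₀).card, ?_⟩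
  · have := Finset.ext_iff.1 hC₀ok.2 t
    simp only [Zf, Af, Finset.mem_filter, (hS t).2 ht, true_and] at this
    exact this.symm
  · rw [hsum, Finset.sum_eq_single C₀ (fun C _ hne => if_neg fun h => hne (huniq C h)) (by simp),
      if_pos hC₀ok]

/-! ### The orbit is regular under the radical -/

variable {p : ℕ}

theorem parabolic_top : P.parabolic P.S = ⊤ := by
  refine eq_top_iff.2 (P.sup_eq_top ▸ sup_le le_sup_left ?_)
  exact P.closure_sup ▸ sup_le le_sup_right (inf_le_left.trans le_sup_left)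

theorem orbitFix_eq [Fact p.Prime] (T : Split P p) (hK : K ⊆ P.S) {g : G}
    (hg : g ∈ P.parabolic K) (hgp : ¬ p ∣ orderOf g) {m : G} (hm : m ∈ P.N) (hr : Red P K ∅ m)
    (hn : ∀ s ∈ K, ∃ t ∈ P.S, Agree P (s * m) (m * t))
    (hasc : ∀ t ∈ P.S, len P m < len P (m * t) ↔ t ∈ J0 P K m) :
    orbitFix P K g m = Nat.card ↥(T.R K ⊓ Subgroup.centralizer ({g} : Set G)) := by
  classical
  obtain ⟨w, hw, hwl, hwr⟩ := exists_top (P := P)
  obtain ⟨c, hc, hcK, hcr, hcl⟩ := exists_top_in (P := P) hK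
  have hcm := special_unique hK hm hr hasc hc hcK hcr hw hwr
  have hJ0S : J0 P K m ⊆ P.S := fun t ht => ht.1
  have hrJ : Red P K (J0 P K m) m := ⟨hr.1, fun t ht => (hasc t ht.1).2 ht⟩
  set R := T.R K with hR
  set Q := P.parabolic (J0 P K m) with hQ
  have hRB : R ≤ P.B := (T.R_le K hK).trans T.U_le
  have hRK : R ≤ P.parabolic K := hRB.trans (B_le_parabolic K)
  have hfree : ∀ r ∈ R, m⁻¹ * r * m ∈ Q → r = 1 := by
    intro r hr' hrq
    obtain ⟨a, b, ha, -, hb, -, hra, hrb, -, hlen⟩ :=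
      conj_data hK hJ0S hm hrJ (hRK hr') hrq
    have haB : Agree P a.prod 1 := agree_of_mem_cell ha.1.prod_mem P.N.one_mem hra
      (by rw [mem_cell_of_mem_B P.B.one_mem]; exact hRB hr')
    have ha0 : a.length = 0 := by
      rw [← ha.2, len_congr haB]; exact (len_eq_zero P.N.one_mem).2 P.B.one_mem
    obtain rfl : b = [] := List.length_eq_zero_iff.1 (hlen ▸ ha0)
    have hmB : m⁻¹ * r * m ∈ P.B := by
      rw [List.prod_nil, mem_cell_of_mem_B P.B.one_mem] at hrb; exact hrb
    have h1 : w⁻¹ * (c * r * c⁻¹) * w ∈ P.B := by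
      have hcw : (c * m)⁻¹ * w ∈ P.B := hcm
      rw [show w⁻¹ * (c * r * c⁻¹) * w =
        ((c * m)⁻¹ * w)⁻¹ * (m⁻¹ * r * m) * ((c * m)⁻¹ * w) by group]
      exact P.B.mul_mem (P.B.mul_mem (P.B.inv_mem hcw) hmB) hcw
    have h2 := mem_R T (subset_refl P.S) hw (by rw [parabolic_top]; trivial) hwr
      (T.R_le K hK (T.R_normal K hK c hcK r hr')) h1
    rw [T.R_top, Subgroup.mem_bot, conj_eq_one_iff] at h2
    exact h2
  let St : Subgroup G := P.parabolic K ⊓ Q.comap (MulAut.conj m⁻¹).toMonoidHom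
  have hSt : ∀ x, x ∈ St ↔ x ∈ P.parabolic K ∧ m⁻¹ * x * m ∈ Q := fun x => by
    simp [St, Subgroup.mem_inf]
  have htrans : P.parabolic K ≤ R ⊔ St := by
    have hH : ∀ h ∈ P.B ⊓ P.N, h ∈ R ⊔ St := fun h hh => Subgroup.mem_sup_right ((hSt h).2
      ⟨B_le_parabolic K hh.1, B_le_parabolic _ (conj_inv_mem' hm hh.1 hh.2)⟩)
    refine sup_le (fun b hb => ?_) ?_
    · obtain ⟨u, hu, h, hh, rfl⟩ := T.exists_mul b hb
      refine Subgroup.mul_mem _ ?_ (hH h hh)
      -- `u` splits along the radical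
      obtain ⟨lc, hlc, hagc, hlcK⟩ := exists_word_parabolic hK hc hcK
      obtain ⟨lm, hlm, hagm⟩ := exists_isReduced hm
      have hred := len_left_mul hK hlc hlcK hlm
        (red_congr' hK (Set.empty_subset _) hm hlm.1.prod_mem hagm.symm hr)
      have hcell : c * (u * m) ∈ cell P w := by
        have hagw : Agree P (lc ++ lm).prod w := by
          rw [List.prod_append]
          exact ((hagm.left lc.prod).trans (hagc.right hlc.1.prod_mem hc hm)).trans hcm
        have hy : lc.prod⁻¹ * c ∈ P.B := hagc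
        have h1 := cell_mul_of_reduced hred (left_mul_mem_cell (P.B.mul_mem hy (T.U_le hu))
          (cell_eq_of_agree hagm ▸ self_mem_cell m))
        rw [cell_eq_of_agree hagw] at h1
        rwa [show lc.prod * (lc.prod⁻¹ * c * u * m) = c * (u * m) by group] at h1
      obtain ⟨a', ha', b', hb', e⟩ := mem_cell.1 hcell
      obtain ⟨u', hu', h', hh', rfl⟩ := T.exists_mul a' ha'
      have hwh : w⁻¹ * h' * w ∈ P.B := conj_inv_mem' hw hh'.1 hh'.2
      set z := c⁻¹ * u' * c with hz
      have hzK : z ∈ P.parabolic K := Subgroup.mul_mem _ (Subgroup.mul_mem _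
        (Subgroup.inv_mem _ hcK) (B_le_parabolic K (T.U_le hu'))) hcK
      have hmB : m⁻¹ * (u⁻¹ * z) * m ∈ P.B := by
        have hcw : (c * m)⁻¹ * w ∈ P.B := hcm
        have e2 : m⁻¹ * (u⁻¹ * z) * m = (w⁻¹ * h' * w * b')⁻¹ * ((c * m)⁻¹ * w)⁻¹ := by
          rw [hz, show m⁻¹ * (u⁻¹ * (c⁻¹ * u' * c)) * m = (c * (u * m))⁻¹ * u' * (c * m) by group, e]
          group
        rw [e2]
        exact P.B.mul_mem (P.B.inv_mem (P.B.mul_mem hwh hb')) (P.B.inv_mem hcw)
      have huz : u⁻¹ * z ∈ P.parabolic K :=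
        Subgroup.mul_mem _ (Subgroup.inv_mem _ (B_le_parabolic K (T.U_le hu))) hzK
      have hzB : z ∈ P.B := by
        obtain ⟨a, b0, ha, -, hb0, hb0J, hza, -, -, hlen⟩ := conj_data hK (Set.empty_subset P.S) hm
          ⟨hr.1, by simp⟩ huz (B_le_parabolic _ hmB)
        obtain rfl : b0 = [] := List.eq_nil_iff_forall_not_mem.2 fun x hx => (hb0J x hx).elim
        obtain rfl : a = [] := List.length_eq_zero_iff.1 (by simpa using hlen)
        rw [List.prod_nil, mem_cell_of_mem_B P.B.one_mem] at hza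
        simpa using P.B.mul_mem (T.U_le hu) hza
      have hu'R : u' ∈ R := mem_R T hK hc hcK hcr hu' hzB
      have hzR : z ∈ R := by
        have := T.R_normal K hK c⁻¹ (Subgroup.inv_mem _ hcK) u' hu'R
        rwa [inv_inv] at this
      have : u⁻¹ * z ∈ St := (hSt _).2 ⟨huz, B_le_parabolic _ hmB⟩
      rw [show u = z * (u⁻¹ * z)⁻¹ by group]
      exact Subgroup.mul_mem _ (Subgroup.mem_sup_left hzR) (Subgroup.mem_sup_right (Subgroup.inv_mem _ this))
    · rw [Subgroup.closure_le]
      intro s hs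
      obtain ⟨t, ht, hst⟩ := hn s hs
      refine Subgroup.mem_sup_right ((hSt s).2 ⟨subset_parabolic K hs, ?_⟩)
      have h1 : (s * m)⁻¹ * (m * t) ∈ P.B := hst
      rw [show m⁻¹ * s * m = t * ((s * m)⁻¹ * (m * t))⁻¹ by group]
      exact Subgroup.mul_mem _ (subset_parabolic _ ⟨ht, s, hs, hst⟩)
        (B_le_parabolic _ (P.B.inv_mem h1))
  have hdecomp : ∀ k ∈ P.parabolic K, ∃ r ∈ R,
      ((k * m : G) : G ⧸ Q) = ((r * m : G) : G ⧸ Q) := by
    intro k hk
    obtain ⟨r, hr', x, hx, rfl⟩ := (CfsgLib.Chevalley.mem_sup_iff_of_conj (K := St) (N := R)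
      (fun y hy z hz => T.R_normal K hK y ((hSt y).1 hy).1 z hz)).1 (htrans hk)
    refine ⟨r, hr', (QuotientGroup.eq.2 ?_).symm⟩
    rw [show (r * m)⁻¹ * (r * x * m) = m⁻¹ * x * m by group]
    exact ((hSt x).1 hx).2
  -- a fixed point
  have hnorm : Subgroup.zpowers g ≤ Subgroup.normalizer (R : Set G) :=
    CfsgLib.Chevalley.le_normalizer_of_conj_mem fun y hy z hz =>
      T.R_normal K hK y ((Subgroup.zpowers_le.2 hg) hy) z hz
  have hRp : IsPGroup p R := T.pGroup.to_le (T.R_le K hK)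
  have hcop : (Nat.card (Subgroup.zpowers g)).Coprime (Nat.card R) := by
    obtain ⟨n, hn'⟩ := hRp.exists_card_eq
    rw [Nat.card_zpowers, hn']
    exact Nat.Coprime.pow_right n ((Nat.Prime.coprime_iff_not_dvd Fact.out).2 hgp).symm
  haveI : Group.IsNilpotent R := hRp.isNilpotent
  obtain ⟨r₀, hr₀, hfix₀⟩ := CfsgLib.CoprimeAction.exists_fixed_of_isSolvable_right
    (Subgroup.zpowers g) R ((m : G) : G ⧸ Q) hnorm hcop (fun a ha => by
      obtain ⟨r, hr', e⟩ := hdecomp a ((Subgroup.zpowers_le.2 hg) ha)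
      exact ⟨r, hr', by simpa [MulAction.Quotient.smul_coe] using e⟩) inferInstance
  have hg₀ : g • ((r₀ * m : G) : G ⧸ Q) = ((r₀ * m : G) : G ⧸ Q) := by
    have := hfix₀ g (Subgroup.mem_zpowers g)
    simpa [MulAction.Quotient.smul_coe] using this
  have hinj : ∀ r ∈ R, ∀ r' ∈ R, ((r * m : G) : G ⧸ Q) = ((r' * m : G) : G ⧸ Q) → r = r' := by
    intro r hr' r' hr'' e
    rw [QuotientGroup.eq, show (r * m)⁻¹ * (r' * m) = m⁻¹ * (r⁻¹ * r') * m by group] at e
    exact inv_mul_eq_one.1 (hfree _ (R.mul_mem (R.inv_mem hr') hr'') e)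
  rw [orbitFix]
  symm
  refine Nat.card_eq_of_bijective (fun r => ⟨(((r : G) * r₀ * m : G) : G ⧸ Q), ?_, (r : G) * r₀,
    hRK (R.mul_mem r.2.1 hr₀), rfl⟩) ⟨?_, ?_⟩
  · have hcomm : g * (r : G) = (r : G) * g := (Subgroup.mem_centralizer_singleton_iff.1 r.2.2).symm
    show g • ((((r : G) * r₀ * m : G) : G ⧸ Q)) = _
    rw [MulAction.Quotient.smul_coe, smul_eq_mul, mul_assoc (r : G), ← mul_assoc g, hcomm,
      mul_assoc, ← smul_eq_mul (r : G), ← MulAction.Quotient.smul_coe, ← smul_eq_mul g,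
      ← MulAction.Quotient.smul_coe, hg₀, MulAction.Quotient.smul_coe, smul_eq_mul]
  · rintro ⟨r, hr'⟩ ⟨r', hr''⟩ e
    have := hinj _ (R.mul_mem hr'.1 hr₀) _ (R.mul_mem hr''.1 hr₀) (congrArg Subtype.val e)
    exact Subtype.ext (mul_right_cancel this)
  · rintro ⟨d, hd, k, hk, rfl⟩
    obtain ⟨r, hr', e⟩ := hdecomp k hk
    refine ⟨⟨r * r₀⁻¹, R.mul_mem hr' (R.inv_mem hr₀), ?_⟩, Subtype.ext ?_⟩
    · refine Subgroup.mem_centralizer_singleton_iff.2 ?_
      have hconj : g * (r * r₀⁻¹) * g⁻¹ ∈ R :=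
        T.R_normal K hK g hg _ (R.mul_mem hr' (R.inv_mem hr₀))
      have h1 : ((g * (r * r₀⁻¹) * g⁻¹ * r₀ * m : G) : G ⧸ Q) = ((r * m : G) : G ⧸ Q) := by
        have h2 : g • ((r * m : G) : G ⧸ Q) = ((r * m : G) : G ⧸ Q) := by rw [← e]; exact hd
        rw [← h2, MulAction.Quotient.smul_coe, smul_eq_mul, mul_assoc (g * _ * g⁻¹),
          ← smul_eq_mul (g * _ * g⁻¹), ← MulAction.Quotient.smul_coe]
        conv_lhs => rw [← hg₀]
        rw [MulAction.Quotient.smul_coe, MulAction.Quotient.smul_coe, smul_eq_mul, smul_eq_mul]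
        congr 1
        group
      have h3 := hinj _ (R.mul_mem hconj hr₀) r hr' h1
      have h4 : g * (r * r₀⁻¹) * g⁻¹ = r * r₀⁻¹ := eq_mul_inv_of_mul_eq h3
      exact (mul_inv_eq_iff_eq_mul.1 h4).symm
    · show ((r * r₀⁻¹ * r₀ * m : G) : G ⧸ Q) = _
      rw [inv_mul_cancel_right]; exact e.symm

/-! ### The theorem -/

/-- The Steinberg character at a `p`-regular element. -/
theorem steinberg_semisimple [Fintype G] [Fact p.Prime] (T : Split P p) {Sf : Finset G}
    (hSf : ↑Sf = P.S) (hH : ∃ n ∈ P.N, ∀ b ∈ P.B, n⁻¹ * b * n ∈ P.B → b ∈ P.N) {n d : ℕ}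
    (hn : ¬ p ^ (n + 1) ∣ Nat.card G) (hd : steinberg P Sf 1 = d) (hdeg : p ^ n ∣ d)
    {g : G} (hg : ¬ p ∣ orderOf g) :
    steinberg P Sf g = ((p ^ (Nat.card (Subgroup.centralizer ({g} : Set G))).factorization p : ℕ) : ℂ) ∨
      steinberg P Sf g =
        -((p ^ (Nat.card (Subgroup.centralizer ({g} : Set G))).factorization p : ℕ) : ℂ) := by
  classical
  obtain ⟨K, hK⟩ : ∃ K, Minimal (fun K : Set G => K ⊆ P.S ∧ ∃ x, x⁻¹ * g * x ∈ P.parabolic K) K :=
    Set.Finite.exists_minimal (Set.toFinite _)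
      ⟨P.S, subset_rfl, 1, by rw [parabolic_top]; trivial⟩
  obtain ⟨hKS, x, hx⟩ := hK.prop
  set g' := x⁻¹ * g * x with hg'
  have hg'p : ¬ p ∣ orderOf g' := by
    rwa [show orderOf g' = orderOf g by
      have := (MulAut.conj x⁻¹).orderOf_eq g; simpa [hg'] using this]
  have hmin : ∀ K' ⊂ K, ∀ y : G, y⁻¹ * g' * y ∉ P.parabolic K' := by
    intro K' hK' y hy
    refine hK'.2 (hK.2 ⟨hK'.1.trans hKS, x * y, ?_⟩ hK'.1)
    rwa [show (x * y)⁻¹ * g * (x * y) = y⁻¹ * g' * y by rw [hg']; group]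
  obtain ⟨m, hm, hr, hnm, hasc, e, he⟩ := steinberg_eq_orbitFix hSf hKS hx hmin
  rw [orbitFix_eq T hKS hx hg'p hm hr hnm hasc] at he
  set c : ℕ := Nat.card ↥(T.R K ⊓ Subgroup.centralizer ({g'} : Set G)) with hc
  have hcg : Nat.card (Subgroup.centralizer ({g'} : Set G)) =
      Nat.card (Subgroup.centralizer ({g} : Set G)) := by
    refine Nat.card_congr ((MulAut.conj x).toEquiv.subtypeEquiv fun z => ?_)
    simp only [Subgroup.mem_centralizer_singleton_iff, hg', MulEquiv.toEquiv_eq_coe,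
      EquivLike.coe_coe, MulAut.conj_apply]
    constructor
    · intro h
      have := congrArg (fun u => x * u * x⁻¹) h
      simpa [mul_assoc] using this
    · intro h
      have := congrArg (fun u => x⁻¹ * u * x) h
      simpa [mul_assoc] using this
  have hval : steinberg P Sf g = steinberg P Sf g' := by
    rw [hg']
    conv_rhs => rw [show x⁻¹ * g * x = x⁻¹ * g * x⁻¹⁻¹ by rw [inv_inv],
      steinberg_isClassFun Sf g x⁻¹]
  set f := (Nat.card (Subgroup.centralizer ({g} : Set G))).factorization p with hf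
  have hp : p.Prime := Fact.out
  have hcC : c = p ^ f := by
    obtain ⟨i, hi⟩ := (IsPGroup.to_le (T.pGroup.to_le (T.R_le K hKS))
      (inf_le_left : T.R K ⊓ Subgroup.centralizer ({g'} : Set G) ≤ T.R K)).exists_card_eq
    have h0 : Nat.card (Subgroup.centralizer ({g} : Set G)) ≠ 0 := Nat.card_pos.ne'
    have hle : i ≤ f := by
      refine (hp.pow_dvd_iff_le_factorization h0).1 ?_
      rw [← hcg, ← hi]
      exact Subgroup.card_dvd_of_le inf_le_right
    have hint := CfsgLib.CharTheory.isIntegral_div_pow_of_fullDegree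
      (SteinbergChar.steinberg_isIrr hSf hH) hp hn hd hdeg g' f
      (by rw [hcg]; exact Nat.ordProj_dvd _ p)
    rw [he] at hint
    have hint' : IsIntegral ℤ ((c : ℂ) / ((p ^ f : ℕ) : ℂ)) := by
      have h1 := ((isIntegral_one (R := ℤ) (B := ℂ)).neg.pow e).mul hint
      rwa [← mul_div_assoc, ← mul_assoc, ← pow_add, ← two_mul, pow_mul, neg_one_sq, one_pow,
        one_mul] at h1
    have hdvd := CfsgLib.CharTheory.dvd_of_isIntegral_natCast_div (pow_pos hp.pos f).ne' hint'
    rw [← hc] at hi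
    rw [hi] at hdvd ⊢
    rw [le_antisymm hle ((Nat.pow_dvd_pow_iff_le_right hp.one_lt).1 hdvd)]
  rw [hval, he, hcC]
  rcases neg_one_pow_eq_or ℂ e with h | h <;> rw [h]
  · exact Or.inl (one_mul _)
  · exact Or.inr (neg_one_mul _)

end CfsgLib.InvCentralizers.SteinbergSemisimple
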