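import Mathlib
import Cfsg.Agent.Lib.SL2.Card

/-!
Unipotent classes of `GL₂` and `SL₂` over a finite field.
-/

set_option autoImplicit false

namespace CfsgLib.InvCentralizers.Unipotent2

open Matrix

variable {F : Type*} [Field F]

/-- The upper unitriangular element with entry `b`. -/
def xSL (b : F) : SpecialLinearGroup (Fin 2) F := ⟨!![1, b; 0, 1], by simp [det_fin_two]⟩

theorem xSL_coe (b : F) : (xSL b : Matrix (Fin 2) (Fin 2) F) = !![1, b; 0, 1] := rfl

theorem xSL_inj {b b' : F} (h : xSL b = xSL b') : b = b' := by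
  have := congrArg (fun g : SpecialLinearGroup (Fin 2) F => (g : Matrix (Fin 2) (Fin 2) F) 0 1) h
  simpa [xSL] using this

theorem sq_eq_zero_of_isNilpotent (N : Matrix (Fin 2) (Fin 2) F) (hN : IsNilpotent N) :
    N * N = 0 := by
  obtain ⟨k, hk⟩ := hN
  have hdet : N 0 0 * N 1 1 - N 0 1 * N 1 0 = 0 := by
    have h := congrArg Matrix.det hk
    rw [det_pow, det_zero] at h
    rw [← det_fin_two]
    exact eq_zero_of_pow_eq_zero h
  have hsq : N * N = (N 0 0 + N 1 1) • N := by
    ext i j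
    fin_cases i <;> fin_cases j <;> simp [Matrix.mul_apply, Fin.sum_univ_two]
    · linear_combination -hdet
    · ring
    · ring
    · linear_combination -hdet
  have hpow : ∀ j : ℕ, N ^ (j + 1) = (N 0 0 + N 1 1) ^ j • N := by
    intro j
    induction j with
    | zero => simp
    | succ j ih => rw [pow_succ, ih, Matrix.smul_mul, hsq, smul_smul, pow_succ]
  rcases k with _ | k
  · exact absurd hk (by simp)
  · rw [hpow] at hk
    rcases smul_eq_zero.1 hk with h | h
    · rw [hsq, eq_zero_of_pow_eq_zero h, zero_smul]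
    · simp [h]

/-- A nonzero square-zero matrix becomes `!![0, 1; 0, 0]` in a suitable basis. -/
theorem exists_frame (N : Matrix (Fin 2) (Fin 2) F) (hN : N * N = 0) (hN0 : N ≠ 0) :
    ∃ C : Matrix (Fin 2) (Fin 2) F, C.det ≠ 0 ∧ N * C = C * !![0, 1; 0, 0] := by
  obtain ⟨j, hj⟩ : ∃ j, ¬ (N 0 j = 0 ∧ N 1 j = 0) := by
    by_contra hcon
    push Not at hcon
    exact hN0 (by ext i k; fin_cases i <;> simp [hcon k])
  have e00 := congrFun (congrFun hN 0) 0
  have e01 := congrFun (congrFun hN 0) 1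
  have e10 := congrFun (congrFun hN 1) 0
  have e11 := congrFun (congrFun hN 1) 1
  simp [Matrix.mul_apply, Fin.sum_univ_two] at e00 e01 e10 e11
  fin_cases j
  · simp at hj
    refine ⟨!![N 0 0, 1; N 1 0, 0], ?_, ?_⟩
    · intro h0
      rw [det_fin_two_of] at h0
      have h10 : N 1 0 = 0 := by linear_combination -h0
      refine hj ?_ h10
      exact mul_self_eq_zero.1 (by linear_combination e00 - (N 0 1) * h10)
    · ext i k
      fin_cases i <;> fin_cases k <;> simp [Matrix.mul_apply, Fin.sum_univ_two]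
      · linear_combination e00
      · linear_combination e10
  · simp at hj
    refine ⟨!![N 0 1, 0; N 1 1, 1], ?_, ?_⟩
    · intro h0
      rw [det_fin_two_of] at h0
      have h01 : N 0 1 = 0 := by linear_combination h0
      refine hj h01 ?_
      exact mul_self_eq_zero.1 (by linear_combination e11 - (N 1 0) * h01)
    · ext i k
      fin_cases i <;> fin_cases k <;> simp [Matrix.mul_apply, Fin.sum_univ_two]
      · linear_combination e01
      · linear_combination e11

theorem isNilpotent_sub_one {p : ℕ} [Fact p.Prime] [CharP F p] (A : Matrix (Fin 2) (Fin 2) F)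
    (h : A ^ p = 1) : IsNilpotent (A - 1) :=
  ⟨p, by rw [sub_pow_char_of_commute p (Commute.one_right A), h, one_pow, sub_self]⟩

/-- In `GL₂` all elements of order `p` are conjugate to `!![1, 1; 0, 1]`. -/
theorem gl_frame {p : ℕ} [Fact p.Prime] [CharP F p] (g : GL (Fin 2) F) (hg : orderOf g = p) :
    ∃ c : GL (Fin 2) F, g * c = c * Matrix.SpecialLinearGroup.toGL (xSL 1) := by
  have hpow : (g : Matrix (Fin 2) (Fin 2) F) ^ p = 1 := by
    rw [← Units.val_pow_eq_pow_val, ← hg, pow_orderOf_eq_one]; rfl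
  have hne : (g : Matrix (Fin 2) (Fin 2) F) - 1 ≠ 0 := by
    rw [sub_ne_zero]
    intro h
    have h1 : g = 1 := Units.ext h
    rw [h1, orderOf_one] at hg
    exact (Fact.out : p.Prime).one_lt.ne hg
  obtain ⟨C, hC, hNC⟩ := exists_frame _ (sq_eq_zero_of_isNilpotent _ (isNilpotent_sub_one _ hpow))
    hne
  refine ⟨GeneralLinearGroup.mkOfDetNeZero C hC, Units.ext ?_⟩
  change (g : Matrix (Fin 2) (Fin 2) F) * C = C * !![1, 1; 0, 1]
  rw [Matrix.sub_mul, Matrix.one_mul, sub_eq_iff_eq_add] at hNC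
  rw [hNC]
  ext i j
  fin_cases i <;> fin_cases j <;> simp [Matrix.mul_apply, Fin.sum_univ_two] <;> ring

/-- A nontrivial unipotent element of `SL₂` is conjugate to some `xSL b`. -/
theorem sl_frame {p : ℕ} [Fact p.Prime] [CharP F p] (g : SpecialLinearGroup (Fin 2) F)
    (hg : orderOf g = p) : ∃ b : F, b ≠ 0 ∧ IsConj (xSL b) g := by
  have hpow : (g : Matrix (Fin 2) (Fin 2) F) ^ p = 1 := by
    rw [← Matrix.SpecialLinearGroup.coe_pow, ← hg, pow_orderOf_eq_one]; rfl
  have hne : (g : Matrix (Fin 2) (Fin 2) F) - 1 ≠ 0 := by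
    rw [sub_ne_zero]
    intro h
    have h1 : g = 1 := Subtype.ext h
    rw [h1, orderOf_one] at hg
    exact (Fact.out : p.Prime).one_lt.ne hg
  obtain ⟨C, hC, hNC⟩ := exists_frame _ (sq_eq_zero_of_isNilpotent _ (isNilpotent_sub_one _ hpow))
    hne
  rw [det_fin_two] at hC
  set D := C 0 0 * C 1 1 - C 0 1 * C 1 0 with hD
  let E : SpecialLinearGroup (Fin 2) F :=
    ⟨!![C 0 0 / D, C 0 1; C 1 0 / D, C 1 1], by
      rw [det_fin_two_of]; field_simp; rw [hD]⟩
  refine ⟨D, hC, isConj_iff.2 ⟨E, ?_⟩⟩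
  rw [mul_inv_eq_iff_eq_mul]
  refine Subtype.ext ?_
  change !![C 0 0 / D, C 0 1; C 1 0 / D, C 1 1] * !![1, D; 0, 1] =
    (g : Matrix (Fin 2) (Fin 2) F) * !![C 0 0 / D, C 0 1; C 1 0 / D, C 1 1]
  rw [Matrix.sub_mul, Matrix.one_mul, sub_eq_iff_eq_add] at hNC
  have e00 := congrFun (congrFun hNC 0) 0
  have e01 := congrFun (congrFun hNC 0) 1
  have e10 := congrFun (congrFun hNC 1) 0
  have e11 := congrFun (congrFun hNC 1) 1
  simp [Matrix.mul_apply, Fin.sum_univ_two] at e00 e01 e10 e11
  ext i j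
  fin_cases i <;> fin_cases j <;> simp [Matrix.mul_apply, Fin.sum_univ_two] <;> field_simp
  · linear_combination -e00
  · linear_combination -e01
  · linear_combination -e10
  · linear_combination -e11

theorem isConj_xSL_iff {b b' : F} (hb : b ≠ 0) :
    IsConj (xSL b) (xSL b') ↔ ∃ a : F, a ≠ 0 ∧ b' = a ^ 2 * b := by
  rw [isConj_iff]
  constructor
  · rintro ⟨c, hc⟩
    rw [mul_inv_eq_iff_eq_mul] at hc
    have h := congrArg (fun g : SpecialLinearGroup (Fin 2) F => (g : Matrix (Fin 2) (Fin 2) F)) hc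
    simp only [Matrix.SpecialLinearGroup.coe_mul, xSL_coe] at h
    have e01 := congrFun (congrFun h 0) 1
    have e11 := congrFun (congrFun h 1) 1
    simp [Matrix.mul_apply, Fin.sum_univ_two] at e01 e11
    have h10 : (c : Matrix (Fin 2) (Fin 2) F) 1 0 = 0 := e11.resolve_right hb
    have hd := c.det_coe
    rw [det_fin_two, h10, mul_zero, sub_zero] at hd
    refine ⟨(c : Matrix (Fin 2) (Fin 2) F) 0 0, left_ne_zero_of_mul_eq_one hd, ?_⟩
    linear_combination -(c : Matrix (Fin 2) (Fin 2) F) 0 0 * e01 - b' * hd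
  · rintro ⟨a, ha, rfl⟩
    refine ⟨⟨!![a, 0; 0, a⁻¹], by simp [det_fin_two_of, ha]⟩, ?_⟩
    refine mul_inv_eq_of_eq_mul (Subtype.ext ?_)
    change !![a, 0; 0, a⁻¹] * !![1, b; 0, 1] = !![1, a ^ 2 * b; 0, 1] * !![a, 0; 0, a⁻¹]
    ext i j
    fin_cases i <;> fin_cases j <;> simp [Matrix.mul_apply, Fin.sum_univ_two]
    field_simp

theorem orderOf_xSL {p : ℕ} [Fact p.Prime] [CharP F p] {b : F} (hb : b ≠ 0) :
    orderOf (xSL b) = p := by
  have hpow : ∀ k : ℕ, ((xSL b ^ k : SpecialLinearGroup (Fin 2) F) :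
      Matrix (Fin 2) (Fin 2) F) = !![1, (k : F) * b; 0, 1] := by
    intro k
    induction k with
    | zero =>
      simp only [pow_zero, Matrix.SpecialLinearGroup.coe_one]
      ext i j; fin_cases i <;> fin_cases j <;> simp
    | succ k ih =>
      rw [pow_succ, Matrix.SpecialLinearGroup.coe_mul, ih, xSL_coe]
      ext i j
      fin_cases i <;> fin_cases j <;> simp [Matrix.mul_apply, Fin.sum_univ_two]
      ring
  refine orderOf_eq_prime (Subtype.ext ?_) ?_
  · rw [hpow, CharP.cast_eq_zero]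
    ext i j
    fin_cases i <;> fin_cases j <;> simp
  · intro h
    have := congrArg (fun g : SpecialLinearGroup (Fin 2) F => (g : Matrix (Fin 2) (Fin 2) F) 0 1) h
    simp [xSL] at this
    exact hb this

theorem card_centralizer_xSL [Fintype F] {b : F} (hb : b ≠ 0) :
    Nat.card (Subgroup.centralizer ({xSL b} : Set (SpecialLinearGroup (Fin 2) F))) =
      Nat.card {a : F // a * a = 1} * Fintype.card F := by
  rw [← Nat.card_eq_fintype_card, ← Nat.card_prod]
  refine Nat.card_congr (Equiv.symm ?_)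
  refine Equiv.ofBijective (fun x => ⟨⟨!![(x.1 : F), x.2; 0, x.1], by
    simp [det_fin_two_of, x.1.2]⟩, ?_⟩) ⟨?_, ?_⟩
  · refine Subgroup.mem_centralizer_singleton_iff.2 (Subtype.ext ?_)
    change !![(x.1 : F), x.2; 0, x.1] * !![1, b; 0, 1] =
      !![1, b; 0, 1] * !![(x.1 : F), x.2; 0, x.1]
    ext i j
    fin_cases i <;> fin_cases j <;> simp [Matrix.mul_apply, Fin.sum_univ_two]
    ring
  · intro x y h
    have h' := congrArg (fun g : ↥(Subgroup.centralizer
      ({xSL b} : Set (SpecialLinearGroup (Fin 2) F))) => (g.1 : Matrix (Fin 2) (Fin 2) F)) h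
    have e0 := congrFun (congrFun h' 0) 0
    have e1 := congrFun (congrFun h' 0) 1
    simp at e0 e1
    exact Prod.ext (Subtype.ext e0) e1
  · rintro ⟨g, hg⟩
    rw [Subgroup.mem_centralizer_singleton_iff] at hg
    have h := congrArg (fun g : SpecialLinearGroup (Fin 2) F => (g : Matrix (Fin 2) (Fin 2) F)) hg
    simp only [Matrix.SpecialLinearGroup.coe_mul, xSL_coe] at h
    have e00 := congrFun (congrFun h 0) 0
    have e01 := congrFun (congrFun h 0) 1
    simp [Matrix.mul_apply, Fin.sum_univ_two] at e00 e01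
    have h10 : (g : Matrix (Fin 2) (Fin 2) F) 1 0 = 0 := e00.resolve_left hb
    have h11 : (g : Matrix (Fin 2) (Fin 2) F) 0 0 = (g : Matrix (Fin 2) (Fin 2) F) 1 1 :=
      mul_left_cancel₀ hb (by linear_combination e01)
    have hd := g.det_coe
    rw [det_fin_two, h10, mul_zero, sub_zero] at hd
    have hsq : (g : Matrix (Fin 2) (Fin 2) F) 0 0 * (g : Matrix (Fin 2) (Fin 2) F) 0 0 = 1 := by
      linear_combination hd + (g : Matrix (Fin 2) (Fin 2) F) 0 0 * h11
    refine ⟨(⟨(g : Matrix (Fin 2) (Fin 2) F) 0 0, hsq⟩, (g : Matrix (Fin 2) (Fin 2) F) 0 1),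
      Subtype.ext (Subtype.ext ?_)⟩
    ext i j
    fin_cases i <;> fin_cases j <;> simp [h10, h11]

theorem card_class_xSL [Fintype F] {b : F} (hb : b ≠ 0) :
    Nat.card (ConjClasses.mk (xSL b)).carrier * Nat.card {a : F // a * a = 1} =
      Fintype.card F ^ 2 - 1 := by
  classical
  have h : Nat.card (ConjClasses.mk (xSL b)).carrier *
      Nat.card (Subgroup.centralizer ({xSL b} : Set (SpecialLinearGroup (Fin 2) F))) =
      Nat.card (SpecialLinearGroup (Fin 2) F) := by
    rw [Subgroup.nat_card_centralizer_nat_card_stabilizer (xSL b),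
      ← ConjAct.orbit_eq_carrier_conjClasses, ← Nat.card_prod]
    exact Nat.card_congr (MulAction.orbitProdStabilizerEquivGroup _ _)
  rw [card_centralizer_xSL hb, CfsgLib.SL2.card_SL, Nat.card_eq_fintype_card (α := F)] at h
  refine Nat.eq_of_mul_eq_mul_left (Fintype.card_pos (α := F)) ?_
  rw [← h]; ring

end CfsgLib.InvCentralizers.Unipotent2
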